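import Cfsg.Agent.Helper16.Averaging
import Cfsg.Agent.Helper16.PReducedOf
import Cfsg.Agent.Helper16.PResidual
import Cfsg.Agent.Helper16.PCore
import Cfsg.Agent.Helper1.Coprime

set_option autoImplicit false

namespace Cfsg.Agent.Helper16

open Cfsg

variable {G : Type*} [Group G] {p : ℕ}

/-- `avg_decomp` for a subgroup `V` that is only normalized by `C` and `T` -/
theorem avg_decomp' [Finite G] (V : Subgroup G)
    (hVc : ∀ a ∈ V, ∀ b ∈ V, a * b = b * a) (hVp : ∀ a ∈ V, a ^ p = 1)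
    (C T : Subgroup G) (hCV : C ≤ Subgroup.normalizer (V : Set G))
    (hidx : (T.relIndex C).Coprime p)
    {m : G} (hm : m ∈ V) (hmT : ∀ t ∈ T, t * m = m * t) :
    ∃ c ∈ V, (∀ x ∈ C, x * c = c * x) ∧
      ∃ u ∈ Subgroup.closure {w : G | ∃ y ∈ C, w = y * m * y⁻¹ * m⁻¹}, m = c * u := by
  set N := Subgroup.normalizer (V : Set G) with hN
  have hVN : V ≤ N := Subgroup.le_normalizer
  haveI : (V.subgroupOf N).Normal := Subgroup.normal_in_normalizer
  have hVc' : ∀ a ∈ V.subgroupOf N, ∀ b ∈ V.subgroupOf N, a * b = b * a := by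
    intro a ha b hb
    exact Subtype.ext (hVc a (Subgroup.mem_subgroupOf.mp ha) b (Subgroup.mem_subgroupOf.mp hb))
  have hVp' : ∀ a ∈ V.subgroupOf N, a ^ p = 1 := by
    intro a ha
    apply Subtype.ext
    rw [Subgroup.coe_pow]
    exact hVp a (Subgroup.mem_subgroupOf.mp ha)
  have hidx' : ((T.subgroupOf N).relIndex (C.subgroupOf N)).Coprime p := by
    rw [Subgroup.relIndex_subgroupOf hCV]; exact hidx
  have hm' : (⟨m, hVN hm⟩ : ↥N) ∈ V.subgroupOf N := Subgroup.mem_subgroupOf.mpr hm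
  have hmT' : ∀ t ∈ T.subgroupOf N, t * (⟨m, hVN hm⟩ : ↥N) = ⟨m, hVN hm⟩ * t := by
    intro t ht
    exact Subtype.ext (hmT t (Subgroup.mem_subgroupOf.mp ht))
  obtain ⟨c, hc, hcC, u, hu, he⟩ := avg_decomp (V.subgroupOf N) hVc' hVp' (C.subgroupOf N)
    (T.subgroupOf N) hidx' hm' hmT'
  refine ⟨c, Subgroup.mem_subgroupOf.mp hc, ?_, u, ?_, congrArg Subtype.val he⟩
  · intro x hx
    exact congrArg Subtype.val (hcC ⟨x, hCV hx⟩ (Subgroup.mem_subgroupOf.mpr hx))
  · have h1 : (Subgroup.closure {w : ↥N | ∃ y ∈ C.subgroupOf N,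
        w = y * ⟨m, hVN hm⟩ * y⁻¹ * (⟨m, hVN hm⟩ : ↥N)⁻¹}).map N.subtype ≤
        Subgroup.closure {w : G | ∃ y ∈ C, w = y * m * y⁻¹ * m⁻¹} := by
      rw [MonoidHom.map_closure, Subgroup.closure_le]
      rintro _ ⟨w, ⟨y, hy, rfl⟩, rfl⟩
      apply Subgroup.subset_closure
      exact ⟨y, Subgroup.mem_subgroupOf.mp hy, rfl⟩
    exact h1 ⟨u, hu, rfl⟩

/-- if `V` is generated by the `H`-conjugates of `C_V(T)`, `T` a Sylow `p`-subgroup of
`R = O^p(H)`, then `V = [V, R] C_V(R)` -/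
theorem module_gen_by_sylow_fixed_splits [Finite G] [Fact p.Prime] (V H : Subgroup G)
    (hV : IsElementaryAbelian p V) (hHV : H ≤ Subgroup.normalizer (V : Set G))
    (S : Sylow p ↥((pResidual p ↥H).map H.subtype))
    (hgen : ∀ W : Subgroup G, H ≤ Subgroup.normalizer (W : Set G) →
      (V ⊓ Subgroup.centralizer ((((S : Subgroup ↥((pResidual p ↥H).map H.subtype)).map
        ((pResidual p ↥H).map H.subtype).subtype : Subgroup G)) : Set G)) ≤ W → V ≤ W) :
    ⁅V, (pResidual p ↥H).map H.subtype⁆ ⊔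
      (V ⊓ Subgroup.centralizer ((((pResidual p ↥H).map H.subtype : Subgroup G)) : Set G)) = V := by
  have hpp := (Fact.out : p.Prime)
  obtain ⟨hVc, hVp⟩ := isElementaryAbelian_iff.mp hV
  generalize hR : (pResidual p ↥H).map H.subtype = R at *
  have hRH : R ≤ H := by rw [← hR]; exact Subgroup.map_subtype_le _
  have hHR : H ≤ Subgroup.normalizer (R : Set G) := by
    apply (Subgroup.normal_subgroupOf_iff_le_normalizer hRH).mp
    rw [← hR, map_subtype_subgroupOf]
    exact pResidual_normal p ↥H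
  set T := (S : Subgroup ↥R).map R.subtype with hT
  have hidx : (T.relIndex R).Coprime p := by
    have h1 : T.subgroupOf R = (S : Subgroup ↥R) := map_subtype_subgroupOf _
    rw [Subgroup.relIndex, h1]
    exact ((Nat.Prime.coprime_iff_not_dvd hpp).mpr S.not_dvd_index).symm
  apply le_antisymm
  · exact sup_le (commutator_le_of_le_normalizer (hRH.trans hHV)) inf_le_left
  · apply hgen
    · exact le_normalizer_sup' (Helper1.le_normalizer_commutator V R H hHV hHR)
        (le_normalizer_inf' hHV (hHR.trans (normalizer_le_normalizer_centralizer R)))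
    · rintro m ⟨hmV, hmT⟩
      obtain ⟨c, hc, hcC, u, hu, he⟩ := avg_decomp' V hVc hVp R T (hRH.trans hHV) hidx hmV
        (fun t ht => Subgroup.mem_centralizer_iff.mp hmT t ht)
      rw [he]
      refine Subgroup.mul_mem _ (Subgroup.mem_sup_right
        ⟨hc, Subgroup.mem_centralizer_iff.mpr (fun x hx => hcC x hx)⟩) (Subgroup.mem_sup_left ?_)
      have h1 : Subgroup.closure {w : G | ∃ y ∈ R, w = y * m * y⁻¹ * m⁻¹} ≤ ⁅V, R⁆ := by
        rw [Subgroup.closure_le]
        rintro w ⟨y, hy, rfl⟩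
        rw [Subgroup.commutator_comm]
        exact comm_mem_commutator hy hmV
      exact h1 hu

end Cfsg.Agent.Helper16
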