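import Mathlib

namespace Cfsg.Agent.Helper16

open Polynomial

/-- The norm of `c - t` is the characteristic polynomial of multiplication by `t`,
evaluated at `c`. -/
theorem norm_algebraMap_sub_eq_eval {K F : Type*} [Field K] [Field F] [Algebra K F]
    [FiniteDimensional K F] (t : F) (c : K) :
    Algebra.norm K (algebraMap K F c - t) = (Algebra.lmul K F t).charpoly.eval c := by
  rw [LinearMap.eval_charpoly, Algebra.norm_apply]
  congr 1
  ext x
  simp [Algebra.smul_def, sub_mul]

/-- If the norm of `c - t` does not depend on `c ∈ K`, then `K` has at most `[F : K]`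
elements. -/
theorem card_le_finrank_of_norm_const {K F : Type*} [Field K] [Fintype K] [Field F]
    [Algebra K F] [FiniteDimensional K F] (t : F)
    (h : ∀ c : K, Algebra.norm K (algebraMap K F c - t) = Algebra.norm K (-t))
    (hpos : 0 < Module.finrank K F) : Fintype.card K ≤ Module.finrank K F := by
  classical
  obtain ⟨χ, hχ⟩ : ∃ χ, χ = (Algebra.lmul K F t).charpoly := ⟨_, rfl⟩
  have hev : ∀ c : K, χ.eval c = χ.eval 0 := by
    intro c
    rw [hχ, ← norm_algebraMap_sub_eq_eval, ← norm_algebraMap_sub_eq_eval, h c, h 0]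
  have hdeg : χ.natDegree = Module.finrank K F := by
    rw [hχ]; exact LinearMap.charpoly_natDegree _
  have hdeg' : (χ - C (χ.eval 0)).natDegree = Module.finrank K F := by
    rw [Polynomial.natDegree_sub_C, hdeg]
  have hne : χ - C (χ.eval 0) ≠ 0 := by
    intro h0
    rw [h0, Polynomial.natDegree_zero] at hdeg'
    omega
  have hsub : (Finset.univ : Finset K).val ⊆ (χ - C (χ.eval 0)).roots := by
    intro c _
    rw [Polynomial.mem_roots hne]
    simp [Polynomial.IsRoot, hev c]
  have := Polynomial.card_le_degree_of_subset_roots hsub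
  rw [hdeg'] at this
  simpa using this

/-- The orbit of a nontrivial element of `E` under `a ↦ (2 - a)⁻¹`. -/
theorem normE_orbit {K F : Type*} [Field K] [Field F] [Algebra K F] [FiniteDimensional K F]
    (hinv : ∀ a : F, (Algebra.norm K a = 1 ∧ Algebra.norm K (2 - a) = 1) →
      (Algebra.norm K a⁻¹ = 1 ∧ Algebra.norm K (2 - a⁻¹) = 1))
    (a : F) (ha : Algebra.norm K a = 1 ∧ Algebra.norm K (2 - a) = 1) (ha1 : a ≠ 1) (k : ℕ) :
    ∃ b : F, (Algebra.norm K b = 1 ∧ Algebra.norm K (2 - b) = 1) ∧ b ≠ 1 ∧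
      (b - 1)⁻¹ = (a - 1)⁻¹ - (k : F) := by
  induction k with
  | zero => exact ⟨a, ha, ha1, by simp⟩
  | succ k ih =>
    obtain ⟨b, hb, hb1, hbk⟩ := ih
    have h2b : (2 : F) - b ≠ 0 := by
      intro h0
      have := hb.2
      rw [h0, Algebra.norm_zero] at this
      exact zero_ne_one this
    have hb1' : b - 1 ≠ 0 := sub_ne_zero.mpr hb1
    have hE2 : Algebra.norm K (2 - b) = 1 ∧ Algebra.norm K (2 - (2 - b)) = 1 := by
      refine ⟨hb.2, ?_⟩
      have : (2 : F) - (2 - b) = b := by ring
      rw [this]; exact hb.1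
    refine ⟨(2 - b)⁻¹, hinv _ hE2, ?_, ?_⟩
    · intro h1
      rw [inv_eq_one] at h1
      apply hb1
      linear_combination -h1
    · have e1 : (2 - b)⁻¹ - 1 = (b - 1) / (2 - b) := by
        field_simp
        ring
      rw [e1, inv_div]
      push_cast
      rw [← sub_sub, ← hbk]
      field_simp
      ring

/-- Along the orbit the norm of `t - k` is constant. -/
theorem normE_const {K F : Type*} [Field K] [Field F] [Algebra K F] [FiniteDimensional K F]
    (hinv : ∀ a : F, (Algebra.norm K a = 1 ∧ Algebra.norm K (2 - a) = 1) →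
      (Algebra.norm K a⁻¹ = 1 ∧ Algebra.norm K (2 - a⁻¹) = 1))
    (a : F) (ha : Algebra.norm K a = 1 ∧ Algebra.norm K (2 - a) = 1) (ha1 : a ≠ 1) (k : ℕ) :
    Algebra.norm K ((a - 1)⁻¹ - (k : F)) = Algebra.norm K ((a - 1)⁻¹) := by
  have step : ∀ k : ℕ, Algebra.norm K ((a - 1)⁻¹ - (k : F) + 1) =
      Algebra.norm K ((a - 1)⁻¹ - (k : F)) := by
    intro k
    obtain ⟨b, hb, hb1, hbk⟩ := normE_orbit hinv a ha ha1 k
    have hb1' : b - 1 ≠ 0 := sub_ne_zero.mpr hb1
    have hs : (b - 1)⁻¹ ≠ 0 := inv_ne_zero hb1'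
    have e : b * (b - 1)⁻¹ = (b - 1)⁻¹ + 1 := by
      field_simp
      ring
    rw [← hbk, ← e, map_mul, hb.1, one_mul]
  induction k with
  | zero => simp
  | succ k ih =>
    rw [← ih, ← step (k + 1)]
    congr 1
    push_cast
    ring

/-- Appendix C polynomial step: if `E` is closed under inversion and has a nontrivial
element, the base field has at most `[F : K]` elements. -/
theorem card_le_finrank_of_normE {p : ℕ} [Fact p.Prime] {F : Type*} [Field F]
    [Algebra (ZMod p) F] [FiniteDimensional (ZMod p) F]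
    (hinv : ∀ a : F, (Algebra.norm (ZMod p) a = 1 ∧ Algebra.norm (ZMod p) (2 - a) = 1) →
      (Algebra.norm (ZMod p) a⁻¹ = 1 ∧ Algebra.norm (ZMod p) (2 - a⁻¹) = 1))
    (a : F) (ha : Algebra.norm (ZMod p) a = 1 ∧ Algebra.norm (ZMod p) (2 - a) = 1)
    (ha1 : a ≠ 1) (hpos : 0 < Module.finrank (ZMod p) F) :
    p ≤ Module.finrank (ZMod p) F := by
  have hmain := card_le_finrank_of_norm_const (K := ZMod p) (F := F) ((a - 1)⁻¹) ?_ hpos
  · simpa using hmain
  · intro c
    have hc : algebraMap (ZMod p) F c = ((c.val : ℕ) : F) := by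
      conv_lhs => rw [← ZMod.natCast_zmod_val c]
      rw [map_natCast]
    have e : algebraMap (ZMod p) F c - (a - 1)⁻¹ = (-1) * ((a - 1)⁻¹ - ((c.val : ℕ) : F)) := by
      rw [hc]; ring
    rw [e, map_mul, normE_const hinv a ha ha1, ← map_mul]
    congr 1
    ring

end Cfsg.Agent.Helper16
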