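import Mathlib
import Cfsg.Agent.Helper16.NormPoly

namespace Cfsg.Agent.Helper16

open Polynomial

/-- An irreducible polynomial of degree `n` over `ZMod p` has a root in `GaloisField p n`. -/
theorem exists_root_galoisField (p : ℕ) [Fact p.Prime] (n : ℕ)
    (g : (ZMod p)[X]) (hirr : Irreducible g) (hdeg : g.natDegree = n) :
    ∃ w : GaloisField p n, aeval w g = 0 := by
  haveI : Fact (Irreducible g) := ⟨hirr⟩
  have hg0 : g ≠ 0 := hirr.ne_zero
  have hfin : Module.finrank (ZMod p) (AdjoinRoot g) = n := by
    rw [← hdeg, (AdjoinRoot.powerBasis hg0).finrank, AdjoinRoot.powerBasis_dim]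
  haveI : Module.Finite (ZMod p) (AdjoinRoot g) := (AdjoinRoot.powerBasis hg0).finite
  have hcard : Nat.card (AdjoinRoot g) = p ^ n := by
    rw [Module.natCard_eq_pow_finrank (K := ZMod p), hfin, Nat.card_zmod]
  obtain ⟨e⟩ : Nonempty (AdjoinRoot g ≃ₐ[ZMod p] GaloisField p n) :=
    ⟨GaloisField.algEquivGaloisField p n hcard⟩
  refine ⟨e (AdjoinRoot.root g), ?_⟩
  rw [Polynomial.aeval_algHom_apply, AdjoinRoot.aeval_eq, AdjoinRoot.mk_self, map_zero]

/-- The characteristic polynomial of multiplication by a root of an irreducible monic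
polynomial of full degree is that polynomial. -/
theorem charpoly_lmul_eq_of_irreducible {K F : Type*} [Field K] [Field F] [Algebra K F]
    [FiniteDimensional K F] (g : K[X]) (hirr : Irreducible g) (hmon : g.Monic)
    (hdeg : g.natDegree = Module.finrank K F) (w : F) (hw : aeval w g = 0) :
    (Algebra.lmul K F w).charpoly = g := by
  have h1 : aeval w (Algebra.lmul K F w).charpoly = 0 := by
    have h := LinearMap.aeval_self_charpoly (Algebra.lmul K F w)
    rw [Polynomial.aeval_algHom_apply] at h
    have := congrArg (fun f => f 1) h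
    simpa using this
  have h2 : g = minpoly K w := minpoly.eq_of_irreducible_of_monic hirr hw hmon
  have h3 : g ∣ (Algebra.lmul K F w).charpoly := by
    rw [h2]; exact minpoly.dvd K w h1
  exact Polynomial.eq_of_monic_of_dvd_of_natDegree_le hmon (LinearMap.charpoly_monic _) h3
    (by rw [LinearMap.charpoly_natDegree, hdeg])

theorem exists_cubic_const (p : ℕ) [Fact p.Prime] :
    ∃ c : ZMod p, c ≠ 0 ∧ ∀ k : ZMod p, k ^ 3 - k + c ≠ 0 := by
  have hni : ¬ Function.Injective (fun k : ZMod p => k - k ^ 3) := by
    intro hinj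
    have := @hinj 0 1 (by simp)
    exact zero_ne_one this
  have hns : ¬ Function.Surjective (fun k : ZMod p => k - k ^ 3) := by
    intro hs; exact hni (Finite.injective_iff_surjective.mpr hs)
  unfold Function.Surjective at hns
  push Not at hns
  obtain ⟨c, hc⟩ := hns
  refine ⟨c, ?_, ?_⟩
  · rintro rfl; exact hc 0 (by simp)
  · intro k hk; exact hc k (by linear_combination -hk)

/-- In the field with `p ^ 3` elements there is `a ≠ 1` with `N(a) = N(2 - a) = 1`. -/
theorem normE_cubic (p : ℕ) [Fact p.Prime] :
    ∃ a : GaloisField p 3, a ≠ 1 ∧ Algebra.norm (ZMod p) a = 1 ∧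
      Algebra.norm (ZMod p) (2 - a) = 1 := by
  obtain ⟨c, hc0, hc⟩ := exists_cubic_const p
  obtain ⟨g, hg⟩ : ∃ g : (ZMod p)[X], g = X ^ 3 - X + C c := ⟨_, rfl⟩
  have hdeg : g.natDegree = 3 := by
    rw [hg]; compute_degree!
  have hmon : g.Monic := by
    rw [hg]; monicity!
  have hev : ∀ k : ZMod p, g.eval k = k ^ 3 - k + c := by
    intro k; rw [hg]; simp
  have hirr : Irreducible g := by
    apply Polynomial.irreducible_of_degree_le_three_of_not_isRoot
    · rw [hdeg]; simp
    · intro k hk
      apply hc k
      rw [← hev k]; exact hk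
  obtain ⟨w, hw⟩ := exists_root_galoisField p 3 g hirr hdeg
  have hfr : Module.finrank (ZMod p) (GaloisField p 3) = 3 := GaloisField.finrank p (by norm_num)
  haveI : FiniteDimensional (ZMod p) (GaloisField p 3) :=
    Module.finite_of_finrank_pos (by rw [hfr]; norm_num)
  have hchar := charpoly_lmul_eq_of_irreducible g hirr hmon (by rw [hdeg, hfr]) w hw
  have hN : ∀ k : ZMod p,
      Algebra.norm (ZMod p) (algebraMap (ZMod p) (GaloisField p 3) k - w) = k ^ 3 - k + c := by
    intro k
    rw [norm_algebraMap_sub_eq_eval, hchar, hev]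
  have h0 : Algebra.norm (ZMod p) (-w) = c := by
    have := hN 0
    simpa using this
  have h1 : Algebra.norm (ZMod p) (1 - w) = c := by
    have := hN 1
    simpa using this
  have hm1 : Algebra.norm (ZMod p) (-1 - w) = c := by
    have := hN (-1)
    rw [show ((-1 : ZMod p)) ^ 3 - (-1) + c = c by ring] at this
    simpa using this
  have hw0 : w ≠ 0 := by
    rintro rfl
    rw [neg_zero, Algebra.norm_zero] at h0
    exact hc0 h0.symm
  refine ⟨(w - 1) / w, ?_, ?_, ?_⟩
  · intro h
    rw [div_eq_one_iff_eq hw0] at h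
    have : (1 : GaloisField p 3) = 0 := by linear_combination -h
    exact one_ne_zero this
  · have e : (w - 1) / w * (-w) = 1 - w := by
      field_simp
      ring
    have := congrArg (Algebra.norm (ZMod p)) e
    rw [map_mul, h0, h1] at this
    exact mul_right_cancel₀ hc0 (by rw [this, one_mul])
  · have e : (2 - (w - 1) / w) * (-w) = -1 - w := by
      field_simp
      ring
    have := congrArg (Algebra.norm (ZMod p)) e
    rw [map_mul, h0, hm1] at this
    exact mul_right_cancel₀ hc0 (by rw [this, one_mul])

end Cfsg.Agent.Helper16
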