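import Mathlib

namespace Cfsg.Agent.Helper16

open Finset

section lift

variable {p : ℕ} [Fact p.Prime] {F : Type*} [Field F] [Algebra (ZMod p) F]
  [FiniteDimensional (ZMod p) F]

/-- The lift of a multiplicative character of the prime field along the norm. -/
noncomputable def normLift (ψ : MulChar (ZMod p) ℂ) : MulChar F ℂ where
  toFun x := ψ (Algebra.norm (ZMod p) x)
  map_one' := by simp
  map_mul' x y := by simp [map_mul]
  map_nonunit' a ha := by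
    have h0 : a = 0 := by
      by_contra h
      exact ha (isUnit_iff_ne_zero.mpr h)
    subst h0
    show ψ (Algebra.norm (ZMod p) (0 : F)) = 0
    rw [Algebra.norm_zero]
    exact MulChar.map_nonunit ψ not_isUnit_zero

theorem normLift_apply (ψ : MulChar (ZMod p) ℂ) (x : F) :
    normLift ψ x = ψ (Algebra.norm (ZMod p) x) := rfl

theorem normLift_one : normLift (F := F) (1 : MulChar (ZMod p) ℂ) = 1 := by
  apply MulChar.ext
  intro a
  rw [normLift_apply, MulChar.one_apply a.isUnit, MulChar.one_apply]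
  exact isUnit_iff_ne_zero.mpr (Algebra.norm_ne_zero_iff.mpr a.ne_zero)

theorem normLift_mul (ψ₁ ψ₂ : MulChar (ZMod p) ℂ) :
    normLift (F := F) (ψ₁ * ψ₂) = normLift ψ₁ * normLift ψ₂ := by
  apply MulChar.ext
  intro a
  simp [normLift_apply, MulChar.mul_apply]

theorem normLift_ne_one (hcop : (Module.finrank (ZMod p) F).Coprime (p - 1))
    {ψ : MulChar (ZMod p) ℂ} (hψ : ψ ≠ 1) : normLift (F := F) ψ ≠ 1 := by
  obtain ⟨k, hk⟩ := MulChar.ne_one_iff.mp hψ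
  intro h
  apply hk
  have hku : IsUnit (algebraMap (ZMod p) F (k : ZMod p)) :=
    isUnit_iff_ne_zero.mpr (by simp)
  have h1 : normLift (F := F) ψ (algebraMap (ZMod p) F (k : ZMod p)) = 1 := by
    rw [h, MulChar.one_apply hku]
  rw [normLift_apply, Algebra.norm_algebraMap, map_pow] at h1
  have h2 : ψ (k : ZMod p) ^ (p - 1) = 1 := by
    rw [← map_pow, ZMod.pow_card_sub_one_eq_one k.ne_zero, map_one]
  have h3 := pow_gcd_eq_one.mpr ⟨h1, h2⟩
  rwa [Nat.Coprime.gcd_eq_one hcop, pow_one] at h3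

end lift

section bound

variable {p : ℕ} [Fact p.Prime] {F : Type*} [Field F] [Fintype F] [Algebra (ZMod p) F]
  [FiniteDimensional (ZMod p) F]

theorem jacobiSum_star {F : Type*} [Field F] [Fintype F] (χ φ : MulChar F ℂ) :
    star (jacobiSum χ φ) = jacobiSum χ⁻¹ φ⁻¹ := by
  simp only [jacobiSum, star_sum, star_mul', MulChar.star_apply']

theorem norm_jacobiSum_eq {F : Type*} [Field F] [Fintype F]
    (hchar : ringChar ℂ ≠ ringChar F) {χ φ : MulChar F ℂ} (hχ : χ ≠ 1) (hφ : φ ≠ 1)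
    (hχφ : χ * φ ≠ 1) :
    ‖jacobiSum χ φ‖ = Real.sqrt (Fintype.card F) := by
  have h := jacobiSum_mul_jacobiSum_inv hchar hχ hφ hχφ
  rw [← jacobiSum_star] at h
  have h2 : ‖jacobiSum χ φ‖ ^ 2 = (Fintype.card F : ℝ) := by
    have := congrArg (fun z : ℂ => ‖z‖) h
    simp only [norm_mul, norm_star, Complex.norm_natCast] at this
    rw [sq]; exact this
  rw [← h2, Real.sqrt_sq (norm_nonneg _)]

theorem norm_jacobiSum_normLift_le (hcop : (Module.finrank (ZMod p) F).Coprime (p - 1))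
    (ψ₁ ψ₂ : MulChar (ZMod p) ℂ) (h : ¬ (ψ₁ = 1 ∧ ψ₂ = 1)) :
    ‖jacobiSum (normLift (F := F) ψ₁) (normLift ψ₂)‖ ≤ Real.sqrt (Fintype.card F) := by
  have hcard : (1 : ℝ) ≤ Real.sqrt (Fintype.card F) := by
    rw [Real.one_le_sqrt]
    exact_mod_cast Fintype.card_pos
  by_cases h1 : ψ₁ = 1
  · have h2 : ψ₂ ≠ 1 := fun h2 => h ⟨h1, h2⟩
    rw [h1, normLift_one, jacobiSum_one_nontrivial (normLift_ne_one hcop h2)]
    simpa using hcard
  by_cases h2 : ψ₂ = 1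
  · rw [h2, normLift_one, jacobiSum_comm, jacobiSum_one_nontrivial (normLift_ne_one hcop h1)]
    simpa using hcard
  by_cases h3 : ψ₁ * ψ₂ = 1
  · have : normLift (F := F) ψ₂ = (normLift ψ₁)⁻¹ := by
      apply eq_inv_of_mul_eq_one_right
      rw [← normLift_mul, h3, normLift_one]
    rw [this, jacobiSum_nontrivial_inv (normLift_ne_one hcop h1), norm_neg]
    have hn : ‖normLift (F := F) ψ₁ (-1)‖ = 1 := by
      apply Complex.norm_eq_one_of_pow_eq_one (n := 2) _ (by norm_num)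
      rw [← map_pow]; simp
    rw [hn]; exact hcard
  · have h3' : normLift (F := F) ψ₁ * normLift ψ₂ ≠ 1 := by
      rw [← normLift_mul]; exact normLift_ne_one hcop h3
    haveI : CharP F p := charP_of_injective_algebraMap (algebraMap (ZMod p) F).injective p
    have hchar : ringChar ℂ ≠ ringChar F := by
      rw [ringChar.eq ℂ 0, ringChar.eq F p]
      exact (Fact.out : p.Prime).ne_zero.symm
    rw [norm_jacobiSum_eq hchar (normLift_ne_one hcop h1) (normLift_ne_one hcop h2) h3']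

theorem sum_jacobi_eq_count {a b : ZMod p} (ha : IsUnit a) (hb : IsUnit b) :
    ∑ ψ₁ : MulChar (ZMod p) ℂ, ∑ ψ₂ : MulChar (ZMod p) ℂ,
      ψ₁ a⁻¹ * ψ₂ b⁻¹ * jacobiSum (normLift (F := F) ψ₁) (normLift ψ₂) =
    ((p - 1 : ℕ) : ℂ) ^ 2 *
      ((Finset.univ.filter (fun x : F => Algebra.norm (ZMod p) x = a ∧
        Algebra.norm (ZMod p) (1 - x) = b)).card : ℂ) := by
  classical
  have key : ∀ x : F, (∑ ψ₁ : MulChar (ZMod p) ℂ, ψ₁ a⁻¹ * ψ₁ (Algebra.norm (ZMod p) x)) *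
      (∑ ψ₂ : MulChar (ZMod p) ℂ, ψ₂ b⁻¹ * ψ₂ (Algebra.norm (ZMod p) (1 - x))) =
      if (Algebra.norm (ZMod p) x = a ∧ Algebra.norm (ZMod p) (1 - x) = b) then
        ((p - 1 : ℕ) : ℂ) ^ 2 else 0 := by
    intro x
    have e1 := DirichletCharacter.sum_char_inv_mul_char_eq ℂ ha (Algebra.norm (ZMod p) x)
    have e2 := DirichletCharacter.sum_char_inv_mul_char_eq ℂ hb (Algebra.norm (ZMod p) (1 - x))
    rw [e1, e2, Nat.totient_prime Fact.out]
    by_cases h1 : a = Algebra.norm (ZMod p) x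
    · by_cases h2 : b = Algebra.norm (ZMod p) (1 - x)
      · rw [if_pos h1, if_pos h2, if_pos ⟨h1.symm, h2.symm⟩, sq]
      · rw [if_neg h2, mul_zero, if_neg (fun h => h2 h.2.symm)]
    · rw [if_neg h1, zero_mul, if_neg (fun h => h1 h.1.symm)]
  have step : ∀ ψ₁ ψ₂ : MulChar (ZMod p) ℂ,
      ψ₁ a⁻¹ * ψ₂ b⁻¹ * jacobiSum (normLift (F := F) ψ₁) (normLift ψ₂) =
      ∑ x : F, (ψ₁ a⁻¹ * ψ₁ (Algebra.norm (ZMod p) x)) *
        (ψ₂ b⁻¹ * ψ₂ (Algebra.norm (ZMod p) (1 - x))) := by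
    intro ψ₁ ψ₂
    rw [jacobiSum, Finset.mul_sum]
    apply Finset.sum_congr rfl
    intro x _
    rw [normLift_apply, normLift_apply]; ring
  simp only [step]
  calc ∑ ψ₁ : MulChar (ZMod p) ℂ, ∑ ψ₂ : MulChar (ZMod p) ℂ, ∑ x : F,
          (ψ₁ a⁻¹ * ψ₁ (Algebra.norm (ZMod p) x)) *
          (ψ₂ b⁻¹ * ψ₂ (Algebra.norm (ZMod p) (1 - x)))
      = ∑ ψ₁ : MulChar (ZMod p) ℂ, ∑ x : F, ∑ ψ₂ : MulChar (ZMod p) ℂ,
          (ψ₁ a⁻¹ * ψ₁ (Algebra.norm (ZMod p) x)) *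
          (ψ₂ b⁻¹ * ψ₂ (Algebra.norm (ZMod p) (1 - x))) :=
        Finset.sum_congr rfl (fun ψ₁ _ => Finset.sum_comm)
    _ = ∑ x : F, ∑ ψ₁ : MulChar (ZMod p) ℂ, ∑ ψ₂ : MulChar (ZMod p) ℂ,
          (ψ₁ a⁻¹ * ψ₁ (Algebra.norm (ZMod p) x)) *
          (ψ₂ b⁻¹ * ψ₂ (Algebra.norm (ZMod p) (1 - x))) := Finset.sum_comm
    _ = ∑ x : F, (∑ ψ₁ : MulChar (ZMod p) ℂ, ψ₁ a⁻¹ * ψ₁ (Algebra.norm (ZMod p) x)) *
          (∑ ψ₂ : MulChar (ZMod p) ℂ, ψ₂ b⁻¹ * ψ₂ (Algebra.norm (ZMod p) (1 - x))) :=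
        Finset.sum_congr rfl (fun x _ => (Finset.sum_mul_sum _ _ _ _).symm)
    _ = ∑ x : F, (if (Algebra.norm (ZMod p) x = a ∧ Algebra.norm (ZMod p) (1 - x) = b) then
          ((p - 1 : ℕ) : ℂ) ^ 2 else 0) := Finset.sum_congr rfl (fun x _ => key x)
    _ = _ := by
        rw [Finset.sum_ite, Finset.sum_const_zero, add_zero, Finset.sum_const, nsmul_eq_mul,
          mul_comm]

theorem count_lower_bound (hcop : (Module.finrank (ZMod p) F).Coprime (p - 1))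
    {a b : ZMod p} (ha : IsUnit a) (hb : IsUnit b) :
    ((Fintype.card F : ℝ) - 2) - (((p - 1 : ℕ) : ℝ) ^ 2 - 1) * Real.sqrt (Fintype.card F) ≤
      ((p - 1 : ℕ) : ℝ) ^ 2 *
      ((Finset.univ.filter (fun x : F => Algebra.norm (ZMod p) x = a ∧
        Algebra.norm (ZMod p) (1 - x) = b)).card : ℝ) := by
  classical
  have hsum := sum_jacobi_eq_count (F := F) ha hb
  obtain ⟨c, hc⟩ : ∃ c : ℕ, c = (Finset.univ.filter (fun x : F => Algebra.norm (ZMod p) x = a ∧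
        Algebra.norm (ZMod p) (1 - x) = b)).card := ⟨_, rfl⟩
  rw [← hc] at hsum ⊢
  obtain ⟨T, hT⟩ : ∃ T : MulChar (ZMod p) ℂ × MulChar (ZMod p) ℂ → ℂ,
      T = fun z => z.1 a⁻¹ * z.2 b⁻¹ * jacobiSum (normLift (F := F) z.1) (normLift z.2) :=
    ⟨_, rfl⟩
  have hsum' : ∑ z : MulChar (ZMod p) ℂ × MulChar (ZMod p) ℂ, T z =
      ((p - 1 : ℕ) : ℂ) ^ 2 * (c : ℂ) := by
    rw [← hsum, Fintype.sum_prod_type, hT]
  have hsplit := Finset.add_sum_erase (Finset.univ) T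
    (Finset.mem_univ ((1 : MulChar (ZMod p) ℂ), (1 : MulChar (ZMod p) ℂ)))
  have hT11 : T (1, 1) = (Fintype.card F : ℂ) - 2 := by
    rw [hT]
    simp only
    rw [normLift_one, jacobiSum_one_one, MulChar.one_apply ha.inv, MulChar.one_apply hb.inv,
      one_mul, one_mul]
  have hp1 : 1 ≤ p - 1 := by
    have := (Fact.out : p.Prime).two_le
    omega
  have hbound : ‖∑ z ∈ (Finset.univ.erase ((1 : MulChar (ZMod p) ℂ), (1 : MulChar (ZMod p) ℂ))),
      T z‖ ≤ (((p - 1 : ℕ) : ℝ) ^ 2 - 1) * Real.sqrt (Fintype.card F) := by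
    refine (norm_sum_le _ _).trans ?_
    have hle : ∀ z ∈ (Finset.univ.erase ((1 : MulChar (ZMod p) ℂ), (1 : MulChar (ZMod p) ℂ))),
        ‖T z‖ ≤ Real.sqrt (Fintype.card F) := by
      intro z hz
      have hz' : ¬ (z.1 = 1 ∧ z.2 = 1) := by
        intro h
        exact (Finset.mem_erase.mp hz).1 (Prod.ext h.1 h.2)
      rw [hT]
      simp only [norm_mul]
      have n1 : ‖z.1 a⁻¹‖ ≤ 1 := DirichletCharacter.norm_le_one z.1 _
      have n2 : ‖z.2 b⁻¹‖ ≤ 1 := DirichletCharacter.norm_le_one z.2 _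
      have n3 := norm_jacobiSum_normLift_le (F := F) hcop z.1 z.2 hz'
      calc ‖z.1 a⁻¹‖ * ‖z.2 b⁻¹‖ * ‖jacobiSum (normLift (F := F) z.1) (normLift z.2)‖
          ≤ 1 * 1 * Real.sqrt (Fintype.card F) := by gcongr
        _ = _ := by ring
    refine (Finset.sum_le_card_nsmul _ _ _ hle).trans ?_
    rw [Finset.card_erase_of_mem (Finset.mem_univ _), Finset.card_univ, Fintype.card_prod,
      nsmul_eq_mul]
    have hD : Fintype.card (MulChar (ZMod p) ℂ) = p - 1 := by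
      have := DirichletCharacter.card_eq_totient_of_hasEnoughRootsOfUnity ℂ p
      rw [Nat.card_eq_fintype_card, Nat.totient_prime Fact.out] at this
      exact this
    rw [hD]
    have hcast : (((p - 1) * (p - 1) - 1 : ℕ) : ℝ) = ((p - 1 : ℕ) : ℝ) ^ 2 - 1 := by
      rw [Nat.cast_sub (Nat.mul_le_mul hp1 hp1), Nat.cast_mul, sq]
      simp
    rw [hcast]
  rw [hT11, hsum'] at hsplit
  have hR : (∑ z ∈ (Finset.univ.erase ((1 : MulChar (ZMod p) ℂ), (1 : MulChar (ZMod p) ℂ))),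
      T z) = ((((p - 1 : ℕ) : ℝ) ^ 2 * (c : ℝ) - ((Fintype.card F : ℝ) - 2) : ℝ) : ℂ) := by
    push_cast
    linear_combination hsplit
  rw [hR, Complex.norm_real, Real.norm_eq_abs] at hbound
  have := (abs_le.mp hbound).1
  linarith

end bound

/-- For `q ≥ 5` the Jacobi sum estimate produces a nontrivial element of `E`. -/
theorem normE_jacobi (p q : ℕ) [Fact p.Prime] [Fact q.Prime] (hp : p ≠ 2) (hq5 : 5 ≤ q)
    (hcop : q.Coprime (p - 1)) :
    ∃ y : GaloisField p q, y ≠ 1 ∧ Algebra.norm (ZMod p) y = 1 ∧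
      Algebra.norm (ZMod p) (2 - y) = 1 := by
  classical
  have hq0 : q ≠ 0 := (Fact.out : q.Prime).ne_zero
  have hfr : Module.finrank (ZMod p) (GaloisField p q) = q := GaloisField.finrank p hq0
  haveI : FiniteDimensional (ZMod p) (GaloisField p q) :=
    Module.finite_of_finrank_pos (by rw [hfr]; exact Nat.pos_of_ne_zero hq0)
  haveI : Fintype (GaloisField p q) := Fintype.ofFinite _
  have hcard : Fintype.card (GaloisField p q) = p ^ q := by
    rw [← Nat.card_eq_fintype_card, GaloisField.card p q hq0]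
  have hp3 : 3 ≤ p := by
    have := (Fact.out : p.Prime).two_le
    omega
  have h2F : (2 : GaloisField p q) ≠ 0 := by
    have e : algebraMap (ZMod p) (GaloisField p q) ((2 : ℕ) : ZMod p) = 2 := by
      rw [map_natCast]; norm_num
    rw [← e]
    intro h
    rw [map_eq_zero, ZMod.natCast_eq_zero_iff] at h
    have := Nat.le_of_dvd (by norm_num) h
    omega
  have hN2 : Algebra.norm (ZMod p) (2 : GaloisField p q) ≠ 0 := Algebra.norm_ne_zero_iff.mpr h2F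
  obtain ⟨a, haN⟩ : ∃ a : ZMod p, a = (Algebra.norm (ZMod p) (2 : GaloisField p q))⁻¹ := ⟨_, rfl⟩
  have ha : IsUnit a := by rw [haN]; exact (isUnit_iff_ne_zero.mpr hN2).inv
  have hlb := count_lower_bound (F := GaloisField p q) (by rw [hfr]; exact hcop) ha ha
  obtain ⟨S, hS⟩ : ∃ S : Finset (GaloisField p q), S = Finset.univ.filter
      (fun x => Algebra.norm (ZMod p) x = a ∧ Algebra.norm (ZMod p) (1 - x) = a) := ⟨_, rfl⟩
  rw [← hS] at hlb
  have hcount : 1 < S.card := by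
    by_contra hlt
    have hle : (S.card : ℝ) ≤ 1 := by exact_mod_cast (by omega : S.card ≤ 1)
    rw [hcard] at hlb
    push_cast at hlb
    obtain ⟨r, hr⟩ : ∃ r : ℝ, r = Real.sqrt ((p : ℝ) ^ q) := ⟨_, rfl⟩
    have hr0 : 0 ≤ r := by rw [hr]; exact Real.sqrt_nonneg _
    have hr2 : r ^ 2 = (p : ℝ) ^ q := by rw [hr]; exact Real.sq_sqrt (by positivity)
    have hP : (3 : ℝ) ≤ p := by exact_mod_cast hp3
    have hpq : (p : ℝ) ^ 5 ≤ (p : ℝ) ^ q := pow_le_pow_right₀ (by linarith) hq5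
    have hrP : (p : ℝ) ^ 2 < r := by
      apply lt_of_pow_lt_pow_left₀ 2 hr0
      rw [hr2]
      have h45 : ((p : ℝ) ^ 2) ^ 2 < (p : ℝ) ^ 5 := by
        have h4 : (0 : ℝ) < (p : ℝ) ^ 4 := by positivity
        nlinarith
      linarith
    have hsub : ((p - 1 : ℕ) : ℝ) = (p : ℝ) - 1 := by
      rw [Nat.cast_sub (by omega)]; simp
    rw [hsub, ← hr, ← hr2] at hlb
    have h1 : ((p : ℝ) - 1) ^ 2 * (S.card : ℝ) ≤ ((p : ℝ) - 1) ^ 2 := by
      nlinarith [sq_nonneg ((p : ℝ) - 1)]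
    have h2 : 0 < r - ((p : ℝ) - 1) ^ 2 + 1 := by nlinarith
    nlinarith [mul_pos (sub_pos.mpr hrP) h2, mul_pos (by positivity : (0 : ℝ) < (p : ℝ) ^ 2)
      (sub_pos.mpr hrP)]
  obtain ⟨x₁, hx₁, x₂, hx₂, hne⟩ := Finset.one_lt_card.mp hcount
  have hex : ∃ x ∈ S, x ≠ (2 : GaloisField p q)⁻¹ := by
    by_cases h : x₁ = (2 : GaloisField p q)⁻¹
    · exact ⟨x₂, hx₂, fun h2 => hne (h.trans h2.symm)⟩
    · exact ⟨x₁, hx₁, h⟩
  obtain ⟨x, hxS, hx⟩ := hex
  rw [hS, Finset.mem_filter] at hxS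
  obtain ⟨-, hxa, hxb⟩ := hxS
  refine ⟨2 * x, ?_, ?_, ?_⟩
  · intro h
    apply hx
    exact eq_inv_of_mul_eq_one_right h
  · rw [map_mul, hxa, haN, mul_inv_cancel₀ hN2]
  · have e : (2 : GaloisField p q) - 2 * x = 2 * (1 - x) := by ring
    rw [e, map_mul, hxb, haN, mul_inv_cancel₀ hN2]

end Cfsg.Agent.Helper16
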