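import Mathlib

set_option autoImplicit false

namespace Cfsg.Agent.Helper16

section Field4

variable {F : Type*} [Field F] [Fintype F]

theorem f4_two (hF : Fintype.card F = 4) : (2 : F) = 0 := by
  have h := FiniteField.cast_card_eq_zero F
  rw [hF] at h
  have h4 : (2 : F) * 2 = 0 := by
    have e : ((4 : ℕ) : F) = 2 * 2 := by norm_num
    rw [← e]; exact h
  exact mul_self_eq_zero.mp h4

theorem f4_cube (hF : Fintype.card F = 4) (a : F) (ha : a ≠ 0) : a ^ 3 = 1 := by
  have h := FiniteField.pow_card_sub_one_eq_one a ha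
  rwa [hF] at h

theorem f4_exists_omega (hF : Fintype.card F = 4) : ∃ ω : F, ω ≠ 0 ∧ ω ≠ 1 := by
  classical
  by_contra h
  push_neg at h
  have hsub : (Finset.univ : Finset F) ⊆ {0, 1} := by
    intro a _
    by_cases ha : a = 0
    · simp [ha]
    · simp [h a ha]
  have h1 : Fintype.card F ≤ 2 := by
    calc Fintype.card F = (Finset.univ : Finset F).card := rfl
      _ ≤ ({0, 1} : Finset F).card := Finset.card_le_card hsub
      _ ≤ 2 := Finset.card_le_two
  omega

end Field4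

section LinAlg

variable {F : Type*} [Field F]

/-- the second coefficient of the characteristic polynomial of a `3 × 3` matrix -/
def sigma3 (x : Matrix (Fin 3) (Fin 3) F) : F :=
  x 0 0 * x 1 1 - x 0 1 * x 1 0 + (x 0 0 * x 2 2 - x 0 2 * x 2 0) + (x 1 1 * x 2 2 - x 1 2 * x 2 1)

theorem adjugate_eq_fin_three (x : Matrix (Fin 3) (Fin 3) F) :
    x.adjugate = x * x - x.trace • x + sigma3 x • (1 : Matrix (Fin 3) (Fin 3) F) := by
  rw [Matrix.adjugate_fin_three, Matrix.trace_fin_three]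
  ext i j
  fin_cases i <;> fin_cases j <;>
    simp [Matrix.mul_apply, Fin.sum_univ_three, sigma3, Matrix.one_apply] <;> ring

theorem det_sub_fin_three (x : Matrix (Fin 3) (Fin 3) F) (μ : F) :
    (μ • (1 : Matrix (Fin 3) (Fin 3) F) - x).det =
      μ ^ 3 - x.trace * μ ^ 2 + sigma3 x * μ - x.det := by
  rw [Matrix.det_fin_three, Matrix.det_fin_three, Matrix.trace_fin_three]
  simp [sigma3, Matrix.one_apply]
  ring

/-- eigenvectors for three distinct eigenvalues give an invertible matrix -/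
theorem eigen_matrix (x : Matrix (Fin 3) (Fin 3) F) (μ₁ μ₂ μ₃ : F) (h12 : μ₁ ≠ μ₂)
    (h13 : μ₁ ≠ μ₃) (h23 : μ₂ ≠ μ₃) (v₁ v₂ v₃ : Fin 3 → F) (hv₁ : v₁ ≠ 0) (hv₂ : v₂ ≠ 0)
    (hv₃ : v₃ ≠ 0) (e₁ : x.mulVec v₁ = μ₁ • v₁) (e₂ : x.mulVec v₂ = μ₂ • v₂)
    (e₃ : x.mulVec v₃ = μ₃ • v₃) :
    ∃ h : Matrix (Fin 3) (Fin 3) F, h.det ≠ 0 ∧ x * h = h * Matrix.diagonal ![μ₁, μ₂, μ₃] := by
  classical
  refine ⟨Matrix.of (fun i j => (![v₁, v₂, v₃] j) i), ?_, ?_⟩
  · intro hdet
    obtain ⟨c, hc, hc0⟩ := Matrix.exists_mulVec_eq_zero_iff.mpr hdet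
    have E0 : c 0 • v₁ + c 1 • v₂ + c 2 • v₃ = 0 := by
      funext i
      have := congrFun hc0 i
      simp [Matrix.mulVec, dotProduct, Fin.sum_univ_three] at this
      simp
      linear_combination this
    have E1 : c 0 • μ₁ • v₁ + c 1 • μ₂ • v₂ + c 2 • μ₃ • v₃ = 0 := by
      have := congrArg x.mulVec E0
      rwa [Matrix.mulVec_add, Matrix.mulVec_add, Matrix.mulVec_smul, Matrix.mulVec_smul,
        Matrix.mulVec_smul, e₁, e₂, e₃, Matrix.mulVec_zero] at this
    have E2 : c 0 • μ₁ • μ₁ • v₁ + c 1 • μ₂ • μ₂ • v₂ + c 2 • μ₃ • μ₃ • v₃ = 0 := by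
      have := congrArg x.mulVec E1
      rwa [Matrix.mulVec_add, Matrix.mulVec_add, Matrix.mulVec_smul, Matrix.mulVec_smul,
        Matrix.mulVec_smul, Matrix.mulVec_smul, Matrix.mulVec_smul, Matrix.mulVec_smul,
        e₁, e₂, e₃, Matrix.mulVec_zero] at this
    have key : ∀ i, c 0 * v₁ i = 0 ∧ c 1 * v₂ i = 0 ∧ c 2 * v₃ i = 0 := by
      intro i
      have a0 := congrFun E0 i
      have a1 := congrFun E1 i
      have a2 := congrFun E2 i
      simp at a0 a1 a2
      refine ⟨?_, ?_, ?_⟩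
      · have h1 : (μ₁ - μ₂) * (μ₁ - μ₃) * (c 0 * v₁ i) = 0 := by
          linear_combination a2 - (μ₂ + μ₃) * a1 + μ₂ * μ₃ * a0
        rcases mul_eq_zero.mp h1 with h | h
        · rcases mul_eq_zero.mp h with h | h
          · exact absurd (sub_eq_zero.mp h) h12
          · exact absurd (sub_eq_zero.mp h) h13
        · exact h
      · have h1 : (μ₂ - μ₁) * (μ₂ - μ₃) * (c 1 * v₂ i) = 0 := by
          linear_combination a2 - (μ₁ + μ₃) * a1 + μ₁ * μ₃ * a0
        rcases mul_eq_zero.mp h1 with h | h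
        · rcases mul_eq_zero.mp h with h | h
          · exact absurd (sub_eq_zero.mp h).symm h12
          · exact absurd (sub_eq_zero.mp h) h23
        · exact h
      · have h1 : (μ₃ - μ₁) * (μ₃ - μ₂) * (c 2 * v₃ i) = 0 := by
          linear_combination a2 - (μ₁ + μ₂) * a1 + μ₁ * μ₂ * a0
        rcases mul_eq_zero.mp h1 with h | h
        · rcases mul_eq_zero.mp h with h | h
          · exact absurd (sub_eq_zero.mp h).symm h13
          · exact absurd (sub_eq_zero.mp h).symm h23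
        · exact h
    have hz : ∀ (v : Fin 3 → F) (a : F), v ≠ 0 → (∀ i, a * v i = 0) → a = 0 := by
      intro v a hv ha
      by_contra ha0
      apply hv
      funext i
      rcases mul_eq_zero.mp (ha i) with h | h
      · exact absurd h ha0
      · exact h
    apply hc
    funext i
    fin_cases i
    · exact hz v₁ _ hv₁ (fun i => (key i).1)
    · exact hz v₂ _ hv₂ (fun i => (key i).2.1)
    · exact hz v₃ _ hv₃ (fun i => (key i).2.2)
  · ext i j
    rw [Matrix.mul_diagonal]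
    have k₁ := congrFun e₁ i
    have k₂ := congrFun e₂ i
    have k₃ := congrFun e₃ i
    simp [Matrix.mulVec, dotProduct, Fin.sum_univ_three] at k₁ k₂ k₃
    fin_cases j
    · simp [Matrix.mul_apply, Fin.sum_univ_three]
      linear_combination k₁
    · simp [Matrix.mul_apply, Fin.sum_univ_three]
      linear_combination k₂
    · simp [Matrix.mul_apply, Fin.sum_univ_three]
      linear_combination k₃

end LinAlg

section Main

open Pointwise

variable {F : Type*} [Field F] [Fintype F]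

theorem sl3_f4_diag (hF : Fintype.card F = 4) (ω : F) (hω0 : ω ≠ 0) (hω1 : ω ≠ 1)
    (x : Matrix (Fin 3) (Fin 3) F) (hdet : x.det = 1) (lam : F)
    (hx3 : x * x * x = lam • (1 : Matrix (Fin 3) (Fin 3) F)) (hns : ∀ c : F, x ≠ c • 1) :
    ∃ h : Matrix (Fin 3) (Fin 3) F, h.det = 1 ∧ x * h = h * Matrix.diagonal ![1, ω, ω ^ 2] := by
  classical
  have h2 := f4_two hF
  have hω3 : ω ^ 3 = 1 := f4_cube hF ω hω0
  have hlam3 : lam ^ 3 = 1 := by
    have h1 := congrArg Matrix.det hx3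
    rw [Matrix.det_mul, Matrix.det_mul, hdet, Matrix.det_smul, Matrix.det_one] at h1
    simpa using h1.symm
  have hlam0 : lam ≠ 0 := by
    rintro rfl
    simp at hlam3
  have hadj := Matrix.mul_adjugate x
  rw [hdet, one_smul, adjugate_eq_fin_three] at hadj
  have EqA : x.trace • (x * x) = (lam - 1) • (1 : Matrix (Fin 3) (Fin 3) F) + sigma3 x • x := by
    have e : x * (x * x - x.trace • x + sigma3 x • (1 : Matrix (Fin 3) (Fin 3) F)) =
        x * x * x - x.trace • (x * x) + sigma3 x • x := by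
      rw [Matrix.mul_add, Matrix.mul_sub, Matrix.mul_smul, Matrix.mul_smul, Matrix.mul_one,
        Matrix.mul_assoc]
    rw [e, hx3] at hadj
    have h1 : x.trace • (x * x) =
        lam • (1 : Matrix (Fin 3) (Fin 3) F) + sigma3 x • x -
          (lam • (1 : Matrix (Fin 3) (Fin 3) F) - x.trace • (x * x) + sigma3 x • x) := by
      abel
    rw [hadj] at h1
    rw [sub_smul, one_smul, h1]; abel
  have hτ : x.trace = 0 := by
    by_contra hτ
    have hxx : x * x = (sigma3 x / x.trace) • x +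
        ((lam - 1) / x.trace) • (1 : Matrix (Fin 3) (Fin 3) F) := by
      have h1 := congrArg (fun m => (x.trace)⁻¹ • m) EqA
      simp only [smul_smul, inv_mul_cancel₀ hτ, one_smul, smul_add] at h1
      rw [h1, add_comm, div_eq_inv_mul, div_eq_inv_mul]
    generalize sigma3 x / x.trace = β at hxx
    have hγdef : ∃ γ : F, γ = (lam - 1) / x.trace := ⟨_, rfl⟩
    obtain ⟨γ, hγ⟩ := hγdef
    rw [← hγ] at hxx
    have hxxx : x * x * x = (β ^ 2 + γ) • x + (β * γ) • (1 : Matrix (Fin 3) (Fin 3) F) := by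
      rw [hxx, Matrix.add_mul, Matrix.smul_mul, Matrix.smul_mul, Matrix.one_mul, hxx, smul_add,
        smul_smul, smul_smul, add_smul, pow_two]
      abel
    rw [hx3] at hxxx
    by_cases hbg : β ^ 2 + γ = 0
    · rw [hbg, zero_smul, zero_add] at hxxx
      have hlam : lam = β * γ := by
        have h1 := congrFun (congrFun hxxx 0) 0
        simpa using h1
      have hγ' : γ = - β ^ 2 := by linear_combination hbg
      have hβ0 : β ≠ 0 := by
        rintro h0
        rw [h0, zero_mul] at hlam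
        exact hlam0 hlam
      have hβ3 := f4_cube hF β hβ0
      have hlam1 : lam = 1 := by
        rw [hlam, hγ']
        linear_combination (-1 : F) * hβ3 - h2
      have hγ0 : γ = 0 := by rw [hγ, hlam1, sub_self, zero_div]
      rw [hγ0] at hγ'
      have h3 : β ^ 2 = 0 := by linear_combination hγ'
      exact hβ0 ((pow_eq_zero_iff two_ne_zero).mp h3)
    · apply hns ((lam - β * γ) / (β ^ 2 + γ))
      have h1 : (β ^ 2 + γ) • x = (lam - β * γ) • (1 : Matrix (Fin 3) (Fin 3) F) := by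
        rw [sub_smul, hxxx]; abel
      have h3 := congrArg (fun m => (β ^ 2 + γ)⁻¹ • m) h1
      simp only [smul_smul, inv_mul_cancel₀ hbg, one_smul] at h3
      rw [div_eq_inv_mul]; exact h3
  have hσ : sigma3 x = 0 := by
    by_contra hσ
    rw [hτ, zero_smul] at EqA
    apply hns ((1 - lam) / sigma3 x)
    have h1 : sigma3 x • x = (1 - lam) • (1 : Matrix (Fin 3) (Fin 3) F) := by
      have h3 : sigma3 x • x = - ((lam - 1) • (1 : Matrix (Fin 3) (Fin 3) F)) := by
        rw [eq_neg_iff_add_eq_zero, add_comm]; exact EqA.symm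
      rw [h3, ← neg_smul, neg_sub]
    have h3 := congrArg (fun m => (sigma3 x)⁻¹ • m) h1
    simp only [smul_smul, inv_mul_cancel₀ hσ, one_smul] at h3
    rw [div_eq_inv_mul]; exact h3
  have hlam1 : lam = 1 := by
    rw [hτ, hσ, zero_smul, zero_smul, add_zero] at EqA
    have h1 := congrFun (congrFun EqA 0) 0
    simp at h1
    linear_combination -h1
  have hdetμ : ∀ μ : F, μ ^ 3 = 1 → ∃ v : Fin 3 → F, v ≠ 0 ∧ x.mulVec v = μ • v := by
    intro μ hμ
    have hd : (μ • (1 : Matrix (Fin 3) (Fin 3) F) - x).det = 0 := by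
      rw [det_sub_fin_three, hτ, hσ, hdet, hμ]; ring
    obtain ⟨v, hv, hv0⟩ := Matrix.exists_mulVec_eq_zero_iff.mpr hd
    refine ⟨v, hv, ?_⟩
    rw [Matrix.sub_mulVec, Matrix.smul_mulVec, Matrix.one_mulVec] at hv0
    exact (sub_eq_zero.mp hv0).symm
  have h1ω2 : (1 : F) ≠ ω ^ 2 := by
    intro h
    apply hω1
    have h3 : ω ^ 3 = ω * ω ^ 2 := by ring
    rw [← h, mul_one] at h3
    rw [← h3, hω3]
  have hωω2 : ω ≠ ω ^ 2 := by
    intro h
    have h3 : ω * (1 - ω) = 0 := by linear_combination h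
    rcases mul_eq_zero.mp h3 with h4 | h4
    · exact hω0 h4
    · exact hω1 (sub_eq_zero.mp h4).symm
  obtain ⟨v₁, hv₁, e₁⟩ := hdetμ 1 (one_pow 3)
  obtain ⟨v₂, hv₂, e₂⟩ := hdetμ ω hω3
  obtain ⟨v₃, hv₃, e₃⟩ := hdetμ (ω ^ 2) (by rw [← pow_mul, mul_comm, pow_mul, hω3, one_pow])
  obtain ⟨h, hh, hxh⟩ :=
    eigen_matrix x 1 ω (ω ^ 2) (Ne.symm hω1) h1ω2 hωω2 v₁ v₂ v₃ hv₁ hv₂ hv₃ e₁ e₂ e₃
  refine ⟨h * Matrix.diagonal ![(h.det)⁻¹, 1, 1], ?_, ?_⟩
  · rw [Matrix.det_mul, Matrix.det_diagonal]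
    simp [Fin.prod_univ_three]
    field_simp
  · rw [← Matrix.mul_assoc, hxh, Matrix.mul_assoc, Matrix.mul_assoc, Matrix.diagonal_mul_diagonal,
      Matrix.diagonal_mul_diagonal]
    congr 2
    funext i
    ring

/-- `diag(1, ω, ω²)` as an element of `SL₃(F)` -/
def diagOmega (ω : F) (hω3 : ω ^ 3 = 1) : Matrix.SpecialLinearGroup (Fin 3) F :=
  ⟨Matrix.diagonal ![1, ω, ω ^ 2], by
    rw [Matrix.det_diagonal]
    simp [Fin.prod_univ_three]
    linear_combination hω3⟩

theorem psl34_conj_diag (hF : Fintype.card F = 4) (ω : F) (hω0 : ω ≠ 0) (hω1 : ω ≠ 1)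
    (X : Subgroup (Matrix.ProjectiveSpecialLinearGroup (Fin 3) F)) (hX : Nat.card ↥X = 3) :
    ∃ g : Matrix.ProjectiveSpecialLinearGroup (Fin 3) F,
      MulAut.conj g • X = Subgroup.zpowers
        (QuotientGroup.mk (diagOmega ω (f4_cube hF ω hω0)) :
          Matrix.ProjectiveSpecialLinearGroup (Fin 3) F) := by
  classical
  haveI : Finite ↥X := Nat.finite_of_card_ne_zero (by rw [hX]; norm_num)
  have hXne : X ≠ ⊥ := by
    intro h
    rw [h, Subgroup.card_bot] at hX
    norm_num at hX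
  obtain ⟨⟨xb, hxb⟩, hxb1'⟩ := (Subgroup.ne_bot_iff_exists_ne_one).mp hXne
  have hxb1 : xb ≠ 1 := fun h => hxb1' (Subtype.ext h)
  have hord : orderOf xb = 3 := by
    have h1 : orderOf xb ∣ 3 := by
      have h0 := orderOf_dvd_natCard (⟨xb, hxb⟩ : ↥X)
      rwa [Subgroup.orderOf_mk, hX] at h0
    rcases (Nat.dvd_prime Nat.prime_three).mp h1 with h | h
    · exact absurd (orderOf_eq_one_iff.mp h) hxb1
    · exact h
  have hzp : Subgroup.zpowers xb = X := by
    apply Subgroup.eq_of_le_of_card_ge ((Subgroup.zpowers_le).mpr hxb)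
    rw [Nat.card_zpowers, hord, hX]
  obtain ⟨x, rfl⟩ := QuotientGroup.mk_surjective xb
  have hx3c : x ^ 3 ∈ Subgroup.center (Matrix.SpecialLinearGroup (Fin 3) F) := by
    have h0 := pow_orderOf_eq_one
      (QuotientGroup.mk x : Matrix.ProjectiveSpecialLinearGroup (Fin 3) F)
    rw [hord] at h0
    rw [← QuotientGroup.eq_one_iff, QuotientGroup.mk_pow]
    exact h0
  obtain ⟨r, -, hr'⟩ := Matrix.SpecialLinearGroup.mem_center_iff.mp hx3c
  have hxxx : (x : Matrix (Fin 3) (Fin 3) F) * (x : Matrix (Fin 3) (Fin 3) F) *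
      (x : Matrix (Fin 3) (Fin 3) F) = r • (1 : Matrix (Fin 3) (Fin 3) F) := by
    have h1 : ((x ^ 3 : Matrix.SpecialLinearGroup (Fin 3) F) : Matrix (Fin 3) (Fin 3) F) =
        (x : Matrix (Fin 3) (Fin 3) F) * (x : Matrix (Fin 3) (Fin 3) F) *
          (x : Matrix (Fin 3) (Fin 3) F) := by
      rw [Matrix.SpecialLinearGroup.coe_pow, pow_succ, pow_two]
    rw [← h1, ← hr', Matrix.scalar_apply, Matrix.smul_one_eq_diagonal]
  have hns : ∀ c : F, (x : Matrix (Fin 3) (Fin 3) F) ≠ c • 1 := by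
    intro c hc
    apply hxb1
    rw [QuotientGroup.eq_one_iff, Matrix.SpecialLinearGroup.mem_center_iff]
    refine ⟨c, ?_, ?_⟩
    · have h1 := x.det_coe
      rw [hc, Matrix.det_smul, Matrix.det_one] at h1
      simpa using h1
    · rw [Matrix.scalar_apply, ← Matrix.smul_one_eq_diagonal, hc]
  obtain ⟨h, hh, hxh⟩ := sl3_f4_diag hF ω hω0 hω1 (x : Matrix (Fin 3) (Fin 3) F) x.det_coe r hxxx hns
  obtain ⟨H, hHdef⟩ : ∃ H : Matrix.SpecialLinearGroup (Fin 3) F,
      (H : Matrix (Fin 3) (Fin 3) F) = h := ⟨⟨h, hh⟩, rfl⟩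
  have hH : x * H = H * diagOmega ω (f4_cube hF ω hω0) := by
    apply Subtype.ext
    rw [Matrix.SpecialLinearGroup.coe_mul, Matrix.SpecialLinearGroup.coe_mul, hHdef]
    exact hxh
  refine ⟨QuotientGroup.mk H⁻¹, ?_⟩
  rw [← hzp]
  have h1 : MulAut.conj (QuotientGroup.mk H⁻¹ :
      Matrix.ProjectiveSpecialLinearGroup (Fin 3) F) • Subgroup.zpowers
        (QuotientGroup.mk x : Matrix.ProjectiveSpecialLinearGroup (Fin 3) F) =
      (Subgroup.zpowers (QuotientGroup.mk x : Matrix.ProjectiveSpecialLinearGroup (Fin 3) F)).map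
        (MulAut.conj (QuotientGroup.mk H⁻¹ :
          Matrix.ProjectiveSpecialLinearGroup (Fin 3) F)).toMonoidHom := rfl
  rw [h1, MonoidHom.map_zpowers]
  congr 1
  show (QuotientGroup.mk H⁻¹ :
      Matrix.ProjectiveSpecialLinearGroup (Fin 3) F) * QuotientGroup.mk x *
      (QuotientGroup.mk H⁻¹ :
      Matrix.ProjectiveSpecialLinearGroup (Fin 3) F)⁻¹ = _
  rw [← QuotientGroup.mk_inv, ← QuotientGroup.mk_mul, ← QuotientGroup.mk_mul, inv_inv,
    mul_assoc, hH, ← mul_assoc, inv_mul_cancel, one_mul]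

theorem psl34_order_three_conj (hF : Fintype.card F = 4)
    (X Y : Subgroup (Matrix.ProjectiveSpecialLinearGroup (Fin 3) F)) (hX : Nat.card ↥X = 3)
    (hY : Nat.card ↥Y = 3) :
    ∃ g : Matrix.ProjectiveSpecialLinearGroup (Fin 3) F, MulAut.conj g • X = Y := by
  obtain ⟨ω, hω0, hω1⟩ := f4_exists_omega hF
  obtain ⟨g₁, hg₁⟩ := psl34_conj_diag hF ω hω0 hω1 X hX
  obtain ⟨g₂, hg₂⟩ := psl34_conj_diag hF ω hω0 hω1 Y hY
  refine ⟨g₂⁻¹ * g₁, ?_⟩
  rw [map_mul, mul_smul, hg₁, ← hg₂, map_inv, inv_smul_smul]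

end Main

end Cfsg.Agent.Helper16
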