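import Mathlib
import Cfsg.Prelude.Def_PLocal

set_option autoImplicit false

namespace Cfsg.Agent.Helper16

/-- the four affine points -/
def qdPt : Fin 4 → (Fin 3 → ZMod 2) := ![![0, 0, 1], ![0, 1, 1], ![1, 0, 1], ![1, 1, 1]]

/-- the index of an affine point -/
def qdIdx (v : Fin 3 → ZMod 2) : Fin 4 :=
  if v 0 = 0 then (if v 1 = 0 then 0 else 1) else (if v 1 = 0 then 2 else 3)

theorem qdIdx_pt (i : Fin 4) : qdIdx (qdPt i) = i := by
  fin_cases i <;> decide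

theorem qdPt_last (i : Fin 4) : qdPt i 2 = 1 := by
  fin_cases i <;> rfl

theorem zmod_two_cases (a : ZMod 2) : a = 0 ∨ a = 1 := by
  revert a; decide

theorem qdPt_idx (v : Fin 3 → ZMod 2) (hv : v 2 = 1) : qdPt (qdIdx v) = v := by
  rcases zmod_two_cases (v 0) with h0 | h0 <;> rcases zmod_two_cases (v 1) with h1 | h1 <;>
  · funext j
    fin_cases j <;> simp [qdIdx, qdPt, h0, h1, hv]

theorem qd_last_row (M : Matrix.SpecialLinearGroup (Fin 3) (ZMod 2)) (hM : M ∈ Cfsg.qd 2)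
    (v : Fin 3 → ZMod 2) :
    (Matrix.mulVec (M : Matrix (Fin 3) (Fin 3) (ZMod 2)) v) 2 = v 2 := by
  unfold Cfsg.qd at hM
  induction hM using Subgroup.closure_induction generalizing v with
  | mem x hx =>
    obtain ⟨h0, h1, h2⟩ := hx
    simp [Matrix.mulVec, dotProduct, Fin.sum_univ_three, h0, h1, h2]
  | one => simp
  | mul x y _ _ hx hy =>
    rw [Matrix.SpecialLinearGroup.coe_mul, ← Matrix.mulVec_mulVec, hx, hy]
  | inv x _ hx =>
    have h1 := hx (Matrix.mulVec ((x⁻¹ : Matrix.SpecialLinearGroup (Fin 3) (ZMod 2)) :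
      Matrix (Fin 3) (Fin 3) (ZMod 2)) v)
    rw [Matrix.mulVec_mulVec, ← Matrix.SpecialLinearGroup.coe_mul, mul_inv_cancel,
      Matrix.SpecialLinearGroup.coe_one, Matrix.one_mulVec] at h1
    exact h1.symm

/-- the action of `Qd(2)` on the four affine points -/
def qdAction : MulAction ↥(Cfsg.qd 2) (Fin 4) where
  smul M i := qdIdx (Matrix.mulVec ((M : Matrix.SpecialLinearGroup (Fin 3) (ZMod 2)) :
    Matrix (Fin 3) (Fin 3) (ZMod 2)) (qdPt i))
  one_smul i := by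
    show qdIdx (Matrix.mulVec (((1 : ↥(Cfsg.qd 2)) : Matrix.SpecialLinearGroup (Fin 3) (ZMod 2)) :
      Matrix (Fin 3) (Fin 3) (ZMod 2)) (qdPt i)) = i
    simp [qdIdx_pt]
  mul_smul M N i := by
    show qdIdx (Matrix.mulVec (((M * N : ↥(Cfsg.qd 2)) : Matrix.SpecialLinearGroup (Fin 3) (ZMod 2)) :
      Matrix (Fin 3) (Fin 3) (ZMod 2)) (qdPt i)) =
      qdIdx (Matrix.mulVec ((M : Matrix.SpecialLinearGroup (Fin 3) (ZMod 2)) :
      Matrix (Fin 3) (Fin 3) (ZMod 2)) (qdPt (qdIdx (Matrix.mulVec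
        ((N : Matrix.SpecialLinearGroup (Fin 3) (ZMod 2)) :
      Matrix (Fin 3) (Fin 3) (ZMod 2)) (qdPt i)))))
    rw [qdPt_idx _ (by rw [qd_last_row _ N.2]; exact qdPt_last i)]
    simp [Matrix.mulVec_mulVec]

/-- the permutation representation of `Qd(2)` on the four affine points -/
def qdHom : ↥(Cfsg.qd 2) →* Equiv.Perm (Fin 4) :=
  @MulAction.toPermHom _ _ _ qdAction

theorem qdHom_apply (M : ↥(Cfsg.qd 2)) (i : Fin 4) :
    qdHom M i = qdIdx (Matrix.mulVec ((M : Matrix.SpecialLinearGroup (Fin 3) (ZMod 2)) :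
    Matrix (Fin 3) (Fin 3) (ZMod 2)) (qdPt i)) := rfl

theorem qdHom_injective : Function.Injective qdHom := by
  rw [injective_iff_map_eq_one]
  intro M hM
  have h : ∀ i, Matrix.mulVec ((M : Matrix.SpecialLinearGroup (Fin 3) (ZMod 2)) :
      Matrix (Fin 3) (Fin 3) (ZMod 2)) (qdPt i) = qdPt i := by
    intro i
    have h1 : qdHom M i = i := by rw [hM]; rfl
    have h2 := qdPt_idx (Matrix.mulVec ((M : Matrix.SpecialLinearGroup (Fin 3) (ZMod 2)) :
      Matrix (Fin 3) (Fin 3) (ZMod 2)) (qdPt i)) (by rw [qd_last_row _ M.2]; exact qdPt_last i)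
    rw [← h2]; exact congrArg qdPt h1
  apply Subtype.ext
  apply Subtype.ext
  show ((M : Matrix.SpecialLinearGroup (Fin 3) (ZMod 2)) : Matrix (Fin 3) (Fin 3) (ZMod 2)) = 1
  have e0 := h 0
  have e1 := h 1
  have e2 := h 2
  ext i j
  have a0 := congrFun e0 i
  have a1 := congrFun e1 i
  have a2 := congrFun e2 i
  simp only [qdPt, Matrix.mulVec, dotProduct, Fin.sum_univ_three] at a0 a1 a2
  fin_cases i <;> fin_cases j <;> simp at a0 a1 a2 ⊢ <;> simp_all

/-- a matrix acting as a 4-cycle -/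
def qdMc : Matrix.SpecialLinearGroup (Fin 3) (ZMod 2) :=
  ⟨!![1, 1, 0; 0, 1, 1; 0, 0, 1], by decide⟩

/-- a matrix acting as a transposition -/
def qdMs : Matrix.SpecialLinearGroup (Fin 3) (ZMod 2) :=
  ⟨!![1, 0, 0; 1, 1, 1; 0, 0, 1], by decide⟩

theorem qdMc_mem : qdMc ∈ Cfsg.qd 2 := Subgroup.subset_closure ⟨rfl, rfl, rfl⟩

theorem qdMs_mem : qdMs ∈ Cfsg.qd 2 := Subgroup.subset_closure ⟨rfl, rfl, rfl⟩

theorem qdHom_Mc : qdHom ⟨qdMc, qdMc_mem⟩ = finRotate 4 := by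
  ext i
  fin_cases i <;> decide

theorem qdHom_Ms : qdHom ⟨qdMs, qdMs_mem⟩ = Equiv.swap 0 1 := by
  ext i
  fin_cases i <;> decide

theorem qdHom_surjective : Function.Surjective qdHom := by
  rw [← MonoidHom.range_eq_top, eq_top_iff]
  have h := Equiv.Perm.closure_cycle_adjacent_swap (isCycle_finRotate (n := 2))
    (support_finRotate (n := 2)) (0 : Fin 4)
  rw [← h, Subgroup.closure_le]
  rintro x (rfl | rfl)
  · exact ⟨_, qdHom_Mc⟩
  · exact ⟨_, qdHom_Ms.trans (by decide)⟩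

theorem qd_two_equiv : Nonempty (↥(Cfsg.qd 2) ≃* Equiv.Perm (Fin 4)) :=
  ⟨MulEquiv.ofBijective qdHom ⟨qdHom_injective, qdHom_surjective⟩⟩

end Cfsg.Agent.Helper16
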