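import Cfsg.Agent.Helper16.Critical4
import Cfsg.Agent.Helper16.Large
import Cfsg.Agent.Helper16.AvgApps

set_option autoImplicit false

namespace Cfsg.Agent.Helper16

open Cfsg

variable {X : Type*} [Group X]

/-- the graph endomorphism of the coset graph induced by a group element -/
def cosetSmulHom (M₁ M₂ : Subgroup X) (g : X) : cosetGraph M₁ M₂ →g cosetGraph M₁ M₂ where
  toFun v := g • v
  map_rel' := fun h => adj_smul M₁ M₂ g h

theorem dist_smul_le (M₁ M₂ : Subgroup X) (hconn : (cosetGraph M₁ M₂).Connected) (g : X)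
    (a b : CosetVertex M₁ M₂) :
    (cosetGraph M₁ M₂).dist (g • a) (g • b) ≤ (cosetGraph M₁ M₂).dist a b := by
  obtain ⟨w, hw⟩ := hconn.exists_walk_length_eq_dist a b
  have h1 := SimpleGraph.dist_le (w.map (cosetSmulHom M₁ M₂ g))
  rw [SimpleGraph.Walk.length_map, hw] at h1
  exact h1

theorem dist_smul (M₁ M₂ : Subgroup X) (hconn : (cosetGraph M₁ M₂).Connected) (g : X)
    (a b : CosetVertex M₁ M₂) :
    (cosetGraph M₁ M₂).dist (g • a) (g • b) = (cosetGraph M₁ M₂).dist a b := by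
  apply le_antisymm (dist_smul_le M₁ M₂ hconn g a b)
  have h1 := dist_smul_le M₁ M₂ hconn g⁻¹ (g • a) (g • b)
  rwa [inv_smul_smul, inv_smul_smul] at h1

theorem omegaOne_center_map_le (p : ℕ) (B : Subgroup X) (g : X) :
    (omegaOne p (B ⊓ Subgroup.centralizer (B : Set X))).map (MulAut.conj g).toMonoidHom ≤
      omegaOne p (B.map (MulAut.conj g).toMonoidHom ⊓
        Subgroup.centralizer ((B.map (MulAut.conj g).toMonoidHom : Subgroup X) : Set X)) := by
  rw [Subgroup.map_le_iff_le_comap, omegaOne_le_iff]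
  rintro x ⟨hx, hc⟩ hp
  rw [Subgroup.mem_comap]
  apply omegaOne_gen_mem
  · refine ⟨Subgroup.mem_map_of_mem _ hx, ?_⟩
    refine Subgroup.mem_centralizer_iff.mpr ?_
    rintro _ ⟨b, hb, rfl⟩
    rw [← map_mul, ← map_mul, Subgroup.mem_centralizer_iff.mp hc b hb]
  · rw [← map_pow, hp, map_one]

theorem sylowCenterClosure_map_conj_le {p : ℕ} [Fact p.Prime] (H : Subgroup X) (g : X) :
    (sylowCenterClosure p H).map (MulAut.conj g).toMonoidHom ≤
      sylowCenterClosure p (H.map (MulAut.conj g).toMonoidHom) := by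
  have hcinj : Function.Injective (MulAut.conj g).toMonoidHom := (MulAut.conj g).injective
  unfold sylowCenterClosure
  rw [Subgroup.map_iSup]
  apply iSup_le
  intro S
  let e : ↥H ≃* ↥(H.map (MulAut.conj g).toMonoidHom) :=
    H.equivMapOfInjective (MulAut.conj g).toMonoidHom hcinj
  have hr : (S : Subgroup ↥H) ≤ e.symm.toMonoidHom.range := by
    rw [MonoidHom.range_eq_top.mpr e.symm.surjective]; exact le_top
  let S' : Sylow p ↥(H.map (MulAut.conj g).toMonoidHom) :=
    S.comapOfInjective e.symm.toMonoidHom e.symm.injective hr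
  have hS' : (S' : Subgroup ↥(H.map (MulAut.conj g).toMonoidHom)).map
      (H.map (MulAut.conj g).toMonoidHom).subtype =
      ((S : Subgroup ↥H).map H.subtype).map (MulAut.conj g).toMonoidHom := by
    ext y
    constructor
    · rintro ⟨s', hs', rfl⟩
      have hs'' : e.symm s' ∈ (S : Subgroup ↥H) := hs'
      refine ⟨(e.symm s' : X), ⟨e.symm s', hs'', rfl⟩, ?_⟩
      have h1 : ((e (e.symm s') : ↥(H.map (MulAut.conj g).toMonoidHom)) : X) =
          (MulAut.conj g).toMonoidHom ((e.symm s' : ↥H) : X) :=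
        Subgroup.coe_equivMapOfInjective_apply H _ hcinj (e.symm s')
      rw [← h1, e.apply_symm_apply]; rfl
    · rintro ⟨_, ⟨s, hs, rfl⟩, rfl⟩
      refine ⟨e s, ?_, ?_⟩
      · show e.symm (e s) ∈ (S : Subgroup ↥H)
        rw [e.symm_apply_apply]; exact hs
      · exact Subgroup.coe_equivMapOfInjective_apply H _ hcinj s
  refine le_trans (omegaOne_center_map_le p _ g) ?_
  rw [← hS']
  exact le_iSup (fun S : Sylow p ↥(H.map (MulAut.conj g).toMonoidHom) =>
    omegaOne p (((S : Subgroup ↥(H.map (MulAut.conj g).toMonoidHom)).map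
      (H.map (MulAut.conj g).toMonoidHom).subtype) ⊓
      Subgroup.centralizer (((S : Subgroup ↥(H.map (MulAut.conj g).toMonoidHom)).map
      (H.map (MulAut.conj g).toMonoidHom).subtype : Subgroup X) : Set X))) S'

theorem vertexZ_smul_le (M₁ M₂ : Subgroup X) {p : ℕ} [Fact p.Prime] (g : X)
    (ν : CosetVertex M₁ M₂) :
    (vertexZ p ν).map (MulAut.conj g).toMonoidHom ≤ vertexZ p (g • ν) := by
  show (sylowCenterClosure p (MulAction.stabilizer X ν)).map _ ≤
    sylowCenterClosure p (MulAction.stabilizer X (g • ν))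
  rw [MulAction.stabilizer_smul_eq_stabilizer_map_conj]
  exact sylowCenterClosure_map_conj_le _ g

theorem stab_le_normalizer_vertexVIter (M₁ M₂ : Subgroup X)
    (hconn : (cosetGraph M₁ M₂).Connected) {p : ℕ} [Fact p.Prime] (k : ℕ)
    (δ : CosetVertex M₁ M₂) :
    MulAction.stabilizer X δ ≤ Subgroup.normalizer (vertexVIter p M₁ M₂ k δ : Set X) := by
  apply le_normalizer_of_conj_mem
  intro g hg u hu
  have key : (vertexVIter p M₁ M₂ k δ).map (MulAut.conj g).toMonoidHom ≤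
      vertexVIter p M₁ M₂ k δ := by
    unfold vertexVIter
    rw [Subgroup.map_iSup]
    apply iSup_le
    rintro ⟨ν, hν⟩
    refine le_trans (vertexZ_smul_le M₁ M₂ g ν) ?_
    have hd : (cosetGraph M₁ M₂).dist δ (g • ν) ≤ k := by
      have h1 := dist_smul M₁ M₂ hconn g δ ν
      rw [MulAction.mem_stabilizer_iff.mp hg] at h1
      rw [h1]; exact hν
    exact le_iSup (fun ν : {ν : CosetVertex M₁ M₂ // (cosetGraph M₁ M₂).dist δ ν ≤ k} =>
      vertexZ p (ν : CosetVertex M₁ M₂)) ⟨g • ν, hd⟩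
  exact key ⟨u, hu, rfl⟩

theorem vertexVIter_le_of_dist (M₁ M₂ : Subgroup X) (p : ℕ) {k m : ℕ}
    {δ μ : CosetVertex M₁ M₂}
    (h : ∀ ν, (cosetGraph M₁ M₂).dist δ ν ≤ k → (cosetGraph M₁ M₂).dist μ ν ≤ m) :
    vertexVIter p M₁ M₂ k δ ≤ vertexVIter p M₁ M₂ m μ := by
  unfold vertexVIter
  apply iSup_le
  rintro ⟨ν, hν⟩
  exact le_iSup (fun ν : {ν : CosetVertex M₁ M₂ // (cosetGraph M₁ M₂).dist μ ν ≤ m} =>
    vertexZ p (ν : CosetVertex M₁ M₂)) ⟨ν, h ν hν⟩

theorem vertexZ_le_vertexVIter (M₁ M₂ : Subgroup X) (p k : ℕ) (δ : CosetVertex M₁ M₂) :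
    vertexZ p δ ≤ vertexVIter p M₁ M₂ k δ :=
  le_iSup (fun ν : {ν : CosetVertex M₁ M₂ // (cosetGraph M₁ M₂).dist δ ν ≤ k} =>
    vertexZ p (ν : CosetVertex M₁ M₂)) ⟨δ, by rw [SimpleGraph.dist_self]; exact Nat.zero_le k⟩

theorem exists_pow_ne_one_pow_eq_one {G : Type*} [Group G] {p : ℕ} {z : G} (hz1 : z ≠ 1)
    (k : ℕ) (hzk : z ^ (p ^ k) = 1) : ∃ j : ℕ, z ^ (p ^ j) ≠ 1 ∧ (z ^ (p ^ j)) ^ p = 1 := by
  classical
  have hex : ∃ j, z ^ (p ^ j) = 1 := ⟨k, hzk⟩
  have hj0 : Nat.find hex ≠ 0 := by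
    intro h0
    have h1 := Nat.find_spec hex
    rw [h0, pow_zero, pow_one] at h1
    exact hz1 h1
  obtain ⟨j, hj⟩ := Nat.exists_eq_succ_of_ne_zero hj0
  refine ⟨j, Nat.find_min hex (by omega), ?_⟩
  have h1 := Nat.find_spec hex
  rw [hj, pow_succ, pow_mul] at h1; exact h1

theorem sylowCenterClosure_ne_bot {p : ℕ} [Fact p.Prime] (H : Subgroup X) [Finite ↥H]
    (hdvd : p ∣ Nat.card ↥H) : sylowCenterClosure p H ≠ ⊥ := by
  obtain ⟨P⟩ : Nonempty (Sylow p ↥H) := inferInstance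
  have hP1 := P.ne_bot_of_dvd_card hdvd
  obtain ⟨z, ⟨hzP, hzC⟩, hz1⟩ := exists_center_ne_one P.isPGroup' hP1
  obtain ⟨k, hk⟩ := P.isPGroup' ⟨z, hzP⟩
  have hzk : z ^ (p ^ k) = 1 := congrArg Subtype.val hk
  obtain ⟨j, hj1, hjp⟩ := exists_pow_ne_one_pow_eq_one hz1 k hzk
  have hmem : z ^ (p ^ j) ∈ zSyl p ↥H :=
    mem_zSyl (S := P) (Subgroup.pow_mem _ hzP _) (Subgroup.pow_mem _ hzC _) hjp
  intro hbot
  rw [sylowCenterClosure_eq_map] at hbot
  have h2 : zSyl p ↥H = ⊥ := (Subgroup.map_eq_bot_iff_of_injective _ H.subtype_injective).mp hbot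
  rw [h2, Subgroup.mem_bot] at hmem
  exact hj1 hmem

theorem stab_finite_dvd {p : ℕ} [Fact p.Prime] (M₁ M₂ : Subgroup X)
    (h : IsCharPAmalgamPair p M₁ M₂) (δ : CosetVertex M₁ M₂) :
    Finite ↥(MulAction.stabilizer X δ) ∧ p ∣ Nat.card ↥(MulAction.stabilizer X δ) := by
  obtain ⟨-, hf1, hf2, hd1, hd2, -, -, -⟩ := h
  haveI := hf1
  haveI := hf2
  rcases δ with a | a
  · obtain ⟨y, rfl⟩ := QuotientGroup.mk_surjective a
    rw [stab_mk₁]
    exact ⟨Finite.of_equiv _ (M₁.equivMapOfInjective _ (MulAut.conj y).injective).toEquiv, by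
      rw [Subgroup.card_map_of_injective (MulAut.conj y).injective]; exact hd1⟩
  · obtain ⟨y, rfl⟩ := QuotientGroup.mk_surjective a
    rw [stab_mk₂]
    exact ⟨Finite.of_equiv _ (M₂.equivMapOfInjective _ (MulAut.conj y).injective).toEquiv, by
      rw [Subgroup.card_map_of_injective (MulAut.conj y).injective]; exact hd2⟩

theorem exists_adj (M₁ M₂ : Subgroup X) (δ : CosetVertex M₁ M₂) :
    ∃ μ, (cosetGraph M₁ M₂).Adj δ μ := by
  rcases δ with a | a
  · obtain ⟨y, rfl⟩ := QuotientGroup.mk_surjective a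
    exact ⟨_, adj_mk M₁ M₂ y⟩
  · obtain ⟨y, rfl⟩ := QuotientGroup.mk_surjective a
    exact ⟨_, (adj_mk M₁ M₂ y).symm⟩

/-- a subgroup containing `O^p(O^{p'}(H))` and `N_H(T)`, `T` a Sylow `p`-subgroup of `H`,
contains `H` -/
theorem le_of_pResidual_le_of_normalizer_le {p : ℕ} [Fact p.Prime] (H : Subgroup X)
    [Finite ↥H] (P : Sylow p ↥H) (N : Subgroup X)
    (h1 : (pResidual p ↥(pElementClosure p H)).map (pElementClosure p H).subtype ≤ N)
    (h2 : H ⊓ Subgroup.normalizer (((P : Subgroup ↥H).map H.subtype : Subgroup X) : Set X) ≤ N) :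
    H ≤ N := by
  have hOH : pElementClosure p H ≤ H := pElementClosure_le p H
  have hTH : (P : Subgroup ↥H).map H.subtype ≤ H := Subgroup.map_subtype_le _
  have hTN : (P : Subgroup ↥H).map H.subtype ≤ N := (le_inf hTH Subgroup.le_normalizer).trans h2
  have hTO : (P : Subgroup ↥H).map H.subtype ≤ pElementClosure p H := by
    rintro _ ⟨t, ht, rfl⟩
    apply Subgroup.subset_closure
    refine ⟨t.2, ?_⟩
    obtain ⟨k, hk⟩ := (IsPGroup.iff_orderOf.mp P.isPGroup') ⟨t, ht⟩
    refine ⟨k, ?_⟩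
    rw [← hk]
    have h1 : orderOf (H.subtype t) = orderOf t := Subgroup.orderOf_coe t
    exact h1.trans (Subgroup.orderOf_mk t ht).symm
  haveI : Finite ↥(pElementClosure p H) :=
    Finite.of_injective (Subgroup.inclusion hOH) (Subgroup.inclusion_injective _)
  have hON : pElementClosure p H ≤ N := by
    have hTp : IsPGroup p ↥(((P : Subgroup ↥H).map H.subtype).subgroupOf (pElementClosure p H)) :=
      (P.isPGroup'.map H.subtype).comap_subtype
    obtain ⟨T₁, hT₁⟩ := hTp.exists_le_sylow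
    have hT₁T : ∀ t : ↥(pElementClosure p H), t ∈ (T₁ : Subgroup ↥(pElementClosure p H)) →
        (t : X) ∈ (P : Subgroup ↥H).map H.subtype := by
      intro t ht
      have hQp : IsPGroup p ↥(((T₁ : Subgroup ↥(pElementClosure p H)).map
          (pElementClosure p H).subtype).subgroupOf H) :=
        (T₁.isPGroup'.map (pElementClosure p H).subtype).comap_subtype
      have hPQ : (P : Subgroup ↥H) ≤ ((T₁ : Subgroup ↥(pElementClosure p H)).map
          (pElementClosure p H).subtype).subgroupOf H := by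
        intro s hs
        rw [Subgroup.mem_subgroupOf]
        have hsT : (s : X) ∈ (P : Subgroup ↥H).map H.subtype := ⟨s, hs, rfl⟩
        exact ⟨⟨s, hTO hsT⟩, hT₁ (Subgroup.mem_subgroupOf.mpr hsT), rfl⟩
      have hQeq := P.is_maximal' hQp hPQ
      have h3 : (⟨t, hOH t.2⟩ : ↥H) ∈ ((T₁ : Subgroup ↥(pElementClosure p H)).map
          (pElementClosure p H).subtype).subgroupOf H := by
        rw [Subgroup.mem_subgroupOf]; exact ⟨t, ht, rfl⟩
      rw [hQeq] at h3
      exact ⟨⟨t, hOH t.2⟩, h3, rfl⟩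
    intro y hy
    obtain ⟨o, ho, t, ht, he⟩ := exists_pResidual_mul_sylow T₁ (⟨y, hy⟩ : ↥(pElementClosure p H))
    have he' : y = (o : X) * (t : X) := congrArg Subtype.val he
    rw [he']
    exact N.mul_mem (h1 ⟨o, ho, rfl⟩) (hTN (hT₁T t ht))
  haveI : ((pElementClosure p H).subgroupOf H).Normal :=
    (Subgroup.normal_subgroupOf_iff_le_normalizer hOH).mpr (le_normalizer_pElementClosure p H)
  have hPN' : (P : Subgroup ↥H) ≤ (pElementClosure p H).subgroupOf H := by
    intro s hs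
    rw [Subgroup.mem_subgroupOf]
    exact hTO ⟨s, hs, rfl⟩
  have hfr0 := Sylow.normalizer_sup_eq_top' P hPN'
  have h3 : Subgroup.normalizer ((P : Subgroup ↥H) : Set ↥H) ≤ N.subgroupOf H := by
    intro n hn
    rw [Subgroup.mem_subgroupOf]
    apply h2
    exact ⟨n.2, Subgroup.le_normalizer_map H.subtype ⟨n, hn, rfl⟩⟩
  have h4 : (pElementClosure p H).subgroupOf H ≤ N.subgroupOf H := by
    intro n hn
    rw [Subgroup.mem_subgroupOf]
    exact hON (Subgroup.mem_subgroupOf.mp hn)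
  have h5 : (⊤ : Subgroup ↥H) ≤ N.subgroupOf H := by
    have h0 : Subgroup.normalizer ((P : Subgroup ↥H) : Set ↥H) ⊔
        (pElementClosure p H).subgroupOf H = ⊤ := hfr0
    rw [← h0]; exact sup_le h3 h4
  exact Subgroup.subgroupOf_eq_top.mp (top_le_iff.mp h5)

theorem edge_normalizer_eq {p : ℕ} [Fact p.Prime] (M₁ M₂ : Subgroup X)
    (h : IsSpeAmalgamPair p M₁ M₂) {δ μ : CosetVertex M₁ M₂}
    (hμ : (cosetGraph M₁ M₂).Adj δ μ)
    (S : Sylow p ↥(MulAction.stabilizer X δ ⊓ MulAction.stabilizer X μ)) :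
    MulAction.stabilizer X δ ⊓ Subgroup.normalizer
      (((S : Subgroup ↥(MulAction.stabilizer X δ ⊓ MulAction.stabilizer X μ)).map
      (MulAction.stabilizer X δ ⊓ MulAction.stabilizer X μ).subtype : Subgroup X) : Set X) =
      MulAction.stabilizer X μ ⊓ Subgroup.normalizer
      (((S : Subgroup ↥(MulAction.stabilizer X δ ⊓ MulAction.stabilizer X μ)).map
      (MulAction.stabilizer X δ ⊓ MulAction.stabilizer X μ).subtype : Subgroup X) : Set X) := by
  obtain ⟨hchar, hspe, -, -⟩ := h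
  obtain ⟨f1, f2, v1, v2⟩ := edge_sylow_data M₁ M₂ hchar hμ
  haveI := f1
  haveI := f2
  haveI : Finite ↥(MulAction.stabilizer X δ ⊓ MulAction.stabilizer X μ) :=
    Finite.of_injective (Subgroup.inclusion (inf_le_left :
      MulAction.stabilizer X δ ⊓ MulAction.stabilizer X μ ≤ MulAction.stabilizer X δ))
    (Subgroup.inclusion_injective _)
  have hTc : Nat.card ↥((S : Subgroup ↥(MulAction.stabilizer X δ ⊓ MulAction.stabilizer X μ)).map
      (MulAction.stabilizer X δ ⊓ MulAction.stabilizer X μ).subtype) =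
      p ^ (Nat.card ↥(MulAction.stabilizer X δ ⊓ MulAction.stabilizer X μ)).factorization p := by
    rw [Subgroup.card_map_of_injective (Subgroup.subtype_injective _), Sylow.card_eq_multiplicity]
  have hTle : (S : Subgroup ↥(MulAction.stabilizer X δ ⊓ MulAction.stabilizer X μ)).map
      (MulAction.stabilizer X δ ⊓ MulAction.stabilizer X μ).subtype ≤
      MulAction.stabilizer X δ ⊓ MulAction.stabilizer X μ := Subgroup.map_subtype_le _
  generalize (S : Subgroup ↥(MulAction.stabilizer X δ ⊓ MulAction.stabilizer X μ)).map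
    (MulAction.stabilizer X δ ⊓ MulAction.stabilizer X μ).subtype = T at hTc hTle
  haveI := hchar.2.1
  have hadj := hμ
  rw [adj_iff] at hadj
  obtain ⟨y, ⟨e1, e2⟩ | ⟨e1, e2⟩⟩ := hadj
  · subst e1 e2
    rw [stab_mk₁, stab_mk₂] at hTc hTle ⊢
    exact conj_edge_normalizer_eq M₁ M₂ hspe y T hTle hTc
  · subst e1 e2
    rw [stab_mk₁, stab_mk₂] at hTc hTle ⊢
    rw [inf_comm] at hTc hTle
    exact (conj_edge_normalizer_eq M₁ M₂ hspe y T hTle hTc).symm

theorem vertexVIter_commutator_not_le {p : ℕ} [Fact p.Prime] (M₁ M₂ : Subgroup X)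
    (h : IsSpeAmalgamPair p M₁ M₂) (lam : CosetVertex M₁ M₂) (n : ℕ) (hn : 2 ≤ n)
    (hVQ : vertexVIter p M₁ M₂ n lam ≤ vertexQ p lam) :
    ¬ ⁅vertexVIter p M₁ M₂ n lam,
      (pResidual p ↥(pElementClosure p (MulAction.stabilizer X lam))).map
        (pElementClosure p (MulAction.stabilizer X lam)).subtype⁆ ≤
      vertexVIter p M₁ M₂ (n - 2) lam := by
  intro hcon
  have hchar := h.1
  have hgen := hchar.1.1
  have hconn := coset_connected M₁ M₂ hgen
  obtain ⟨μ, hμ⟩ := exists_adj M₁ M₂ lam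
  obtain ⟨f1, f2, v1, v2⟩ := edge_sylow_data M₁ M₂ hchar hμ
  haveI := f1
  haveI := f2
  haveI : Finite ↥(MulAction.stabilizer X lam ⊓ MulAction.stabilizer X μ) :=
    Finite.of_injective (Subgroup.inclusion (inf_le_left :
      MulAction.stabilizer X lam ⊓ MulAction.stabilizer X μ ≤ MulAction.stabilizer X lam))
    (Subgroup.inclusion_injective _)
  obtain ⟨S⟩ : Nonempty (Sylow p ↥(MulAction.stabilizer X lam ⊓ MulAction.stabilizer X μ)) :=
    inferInstance
  obtain ⟨P, hP⟩ := exists_sylow_eq_map_inclusion (inf_le_left :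
      MulAction.stabilizer X lam ⊓ MulAction.stabilizer X μ ≤ MulAction.stabilizer X lam) v1 S
  have hB := edge_normalizer_eq M₁ M₂ h hμ S
  have hd1 : (cosetGraph M₁ M₂).dist lam μ = 1 := SimpleGraph.dist_eq_one_iff_adj.mpr hμ
  have hd1' : (cosetGraph M₁ M₂).dist μ lam = 1 := SimpleGraph.dist_eq_one_iff_adj.mpr hμ.symm
  have hV₂W : vertexVIter p M₁ M₂ (n - 2) lam ≤ vertexVIter p M₁ M₂ (n - 1) μ := by
    apply vertexVIter_le_of_dist
    intro ν hν
    have h1 := hconn.dist_triangle (u := μ) (v := lam) (w := ν)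
    omega
  have hWV : vertexVIter p M₁ M₂ (n - 1) μ ≤ vertexVIter p M₁ M₂ n lam := by
    apply vertexVIter_le_of_dist
    intro ν hν
    have h1 := hconn.dist_triangle (u := lam) (v := μ) (w := ν)
    omega
  have hμW := stab_le_normalizer_vertexVIter M₁ M₂ hconn (p := p) (n - 1) μ
  have hXW : (pResidual p ↥(pElementClosure p (MulAction.stabilizer X lam))).map
        (pElementClosure p (MulAction.stabilizer X lam)).subtype ≤
      Subgroup.normalizer (vertexVIter p M₁ M₂ (n - 1) μ : Set X) :=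
    le_normalizer_of_commutator_le
      ((Subgroup.commutator_mono hWV le_rfl).trans (hcon.trans hV₂W))
  have hlamW : MulAction.stabilizer X lam ≤
      Subgroup.normalizer (vertexVIter p M₁ M₂ (n - 1) μ : Set X) :=
    le_of_pResidual_le_of_normalizer_le (MulAction.stabilizer X lam) P _ hXW
      (by rw [hP, hB]; exact inf_le_left.trans hμW)
  have hQT : vertexQ p lam ≤
      (S : Subgroup ↥(MulAction.stabilizer X lam ⊓ MulAction.stabilizer X μ)).map
      (MulAction.stabilizer X lam ⊓ MulAction.stabilizer X μ).subtype := by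
    rw [← hP]; exact Subgroup.map_mono (pCore_le_sylow P)
  have hWedge : vertexVIter p M₁ M₂ (n - 1) μ ≤
      MulAction.stabilizer X lam ⊓ MulAction.stabilizer X μ :=
    hWV.trans (hVQ.trans (hQT.trans (Subgroup.map_subtype_le _)))
  have hWbot : vertexVIter p M₁ M₂ (n - 1) μ = ⊥ :=
    edge_normal_eq_bot M₁ M₂ hchar.1 hμ _ hWedge hlamW hμW
  have hZ : vertexZ p μ ≠ ⊥ := by
    obtain ⟨ff, hdvd⟩ := stab_finite_dvd M₁ M₂ hchar μ
    exact sylowCenterClosure_ne_bot _ hdvd
  apply hZ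
  rw [eq_bot_iff, ← hWbot]
  exact vertexZ_le_vertexVIter M₁ M₂ p (n - 1) μ

end Cfsg.Agent.Helper16
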