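import Cfsg.Agent.Helper16.VIter
import Cfsg.Agent.Helper1.Coprime

set_option autoImplicit false

namespace Cfsg.Agent.Helper16

open Cfsg

variable {X : Type*} [Group X]

/-- a Nakayama-type lemma for a finite `p`-group `Q` acting on `V ≤ Q`: if `V ≤ W [V, Q]`
then `V ≤ W` -/
theorem nakayama_pgroup {p : ℕ} [Fact p.Prime] {Q V W : Subgroup X} [Finite ↥Q]
    (hQ : IsPGroup p ↥Q) (hVQ : V ≤ Q) (hQV : Q ≤ Subgroup.normalizer (V : Set X))
    (hWQ : W ≤ Q) (hQW : Q ≤ Subgroup.normalizer (W : Set X)) (h : V ≤ W ⊔ ⁅V, Q⁆) :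
    V ≤ W := by
  have key1 : ∀ i, iterCommutator V Q i ≤ Q ∧
      Q ≤ Subgroup.normalizer (iterCommutator V Q i : Set X) := by
    intro i
    induction i with
    | zero => exact ⟨hVQ, hQV⟩
    | succ i ih =>
      refine ⟨?_, Helper1.le_normalizer_commutator _ _ _ ih.2 Subgroup.le_normalizer⟩
      show ⁅iterCommutator V Q i, Q⁆ ≤ Q
      exact (Subgroup.commutator_mono ih.1 le_rfl).trans
        (Subgroup.le_normalizer_iff_commutator_le_left.mp Subgroup.le_normalizer)
  have key2 : ∀ i, iterCommutator V Q i ≤ Q.lowerCentralSeries i := by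
    intro i
    induction i with
    | zero => exact hVQ
    | succ i ih =>
      show ⁅iterCommutator V Q i, Q⁆ ≤ ⁅Q.lowerCentralSeries i, Q⁆
      exact Subgroup.commutator_mono ih le_rfl
  have key3 : ∀ i, V ≤ W ⊔ iterCommutator V Q i := by
    intro i
    induction i with
    | zero => exact le_sup_right
    | succ i ih =>
      refine h.trans (sup_le le_sup_left ?_)
      refine (Subgroup.commutator_mono ih le_rfl).trans ?_
      rw [Subgroup.commutator_comm]
      have hN : Q ≤ Subgroup.normalizer ((W ⊔ iterCommutator V Q (i + 1) : Subgroup X) : Set X) :=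
        le_normalizer_sup' hQW (key1 (i + 1)).2
      apply commutator_sup_le (hWQ.trans hN) ((key1 i).1.trans hN)
      · exact (Subgroup.le_normalizer_iff_commutator_le_right.mp hQW).trans le_sup_left
      · rw [Subgroup.commutator_comm]
        exact le_sup_right
  have hnil : Group.IsNilpotent ↥Q := hQ.isNilpotent
  obtain ⟨m, hm⟩ := (Subgroup.isNilpotent_iff_lowerCentralSeries (S := Q)).mp hnil
  have h1 := key3 m
  have h2 : iterCommutator V Q m = ⊥ := by
    rw [eq_bot_iff, ← hm]; exact key2 m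
  rw [h2, sup_bot_eq] at h1
  exact h1

theorem vertexZ_le_centralizer_vertexQ {p : ℕ} [Fact p.Prime] (M₁ M₂ : Subgroup X)
    (lam : CosetVertex M₁ M₂) [Finite ↥(MulAction.stabilizer X lam)] :
    vertexZ p lam ≤ Subgroup.centralizer (vertexQ p lam : Set X) := by
  show sylowCenterClosure p (MulAction.stabilizer X lam) ≤ _
  unfold sylowCenterClosure
  apply iSup_le
  intro S'
  have hQS : vertexQ p lam ≤
      (S' : Subgroup ↥(MulAction.stabilizer X lam)).map (MulAction.stabilizer X lam).subtype :=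
    Subgroup.map_mono (pCore_le_sylow S')
  unfold omegaOne
  rw [Subgroup.closure_le]
  rintro x ⟨hx, -⟩
  exact Subgroup.centralizer_le hQS hx.2

theorem vertexVIter_commutator_not_le_core {p : ℕ} [Fact p.Prime] (M₁ M₂ : Subgroup X)
    (h : IsSpeAmalgamPair p M₁ M₂) (lam : CosetVertex M₁ M₂) (n : ℕ) (hn : 1 ≤ n)
    (hVQ : vertexVIter p M₁ M₂ n lam ≤ vertexQ p lam) :
    ¬ ⁅vertexVIter p M₁ M₂ n lam,
      (pResidual p ↥(pElementClosure p (MulAction.stabilizer X lam))).map
        (pElementClosure p (MulAction.stabilizer X lam)).subtype⁆ ≤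
      ⁅vertexVIter p M₁ M₂ n lam, vertexQ p lam⁆ := by
  intro hcon
  have hchar := h.1
  have hgen := hchar.1.1
  have hconn := coset_connected M₁ M₂ hgen
  obtain ⟨μ, hμ⟩ := exists_adj M₁ M₂ lam
  obtain ⟨f1, f2, v1, v2⟩ := edge_sylow_data M₁ M₂ hchar hμ
  haveI := f1
  haveI := f2
  haveI : Finite ↥(MulAction.stabilizer X lam ⊓ MulAction.stabilizer X μ) :=
    Finite.of_injective (Subgroup.inclusion (inf_le_left :
      MulAction.stabilizer X lam ⊓ MulAction.stabilizer X μ ≤ MulAction.stabilizer X lam))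
    (Subgroup.inclusion_injective _)
  obtain ⟨S⟩ : Nonempty (Sylow p ↥(MulAction.stabilizer X lam ⊓ MulAction.stabilizer X μ)) :=
    inferInstance
  obtain ⟨P, hP⟩ := exists_sylow_eq_map_inclusion (inf_le_left :
      MulAction.stabilizer X lam ⊓ MulAction.stabilizer X μ ≤ MulAction.stabilizer X lam) v1 S
  have hB := edge_normalizer_eq M₁ M₂ h hμ S
  have hd1 : (cosetGraph M₁ M₂).dist lam μ = 1 := SimpleGraph.dist_eq_one_iff_adj.mpr hμ
  have hd1' : (cosetGraph M₁ M₂).dist μ lam = 1 := SimpleGraph.dist_eq_one_iff_adj.mpr hμ.symm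
  have hWV : vertexVIter p M₁ M₂ (n - 1) μ ≤ vertexVIter p M₁ M₂ n lam := by
    apply vertexVIter_le_of_dist
    intro ν hν
    have h1 := hconn.dist_triangle (u := lam) (v := μ) (w := ν)
    omega
  have hZlV : vertexZ p lam ≤ vertexVIter p M₁ M₂ n lam := vertexZ_le_vertexVIter M₁ M₂ p n lam
  have hμW := stab_le_normalizer_vertexVIter M₁ M₂ hconn (p := p) (n - 1) μ
  have hlamV := stab_le_normalizer_vertexVIter M₁ M₂ hconn (p := p) n lam
  have hlamZ : MulAction.stabilizer X lam ≤ Subgroup.normalizer (vertexZ p lam : Set X) :=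
    le_normalizer_sylowCenterClosure p _
  have hlamQ : MulAction.stabilizer X lam ≤ Subgroup.normalizer (vertexQ p lam : Set X) :=
    le_normalizer_pCoreOf p _
  have hQlam : vertexQ p lam ≤ MulAction.stabilizer X lam := Subgroup.map_subtype_le _
  have hQT : vertexQ p lam ≤
      (S : Subgroup ↥(MulAction.stabilizer X lam ⊓ MulAction.stabilizer X μ)).map
      (MulAction.stabilizer X lam ⊓ MulAction.stabilizer X μ).subtype := by
    rw [← hP]; exact Subgroup.map_mono (pCore_le_sylow P)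
  have hQedge : vertexQ p lam ≤ MulAction.stabilizer X lam ⊓ MulAction.stabilizer X μ :=
    hQT.trans (Subgroup.map_subtype_le _)
  have hQμ : vertexQ p lam ≤ MulAction.stabilizer X μ := hQedge.trans inf_le_right
  have hQp : IsPGroup p ↥(vertexQ p lam) := isPGroup_pCoreOf p _
  haveI : Finite ↥(vertexQ p lam) :=
    Finite.of_injective (Subgroup.inclusion hQlam) (Subgroup.inclusion_injective _)
  have hlamVQ : MulAction.stabilizer X lam ≤
      Subgroup.normalizer ((⁅vertexVIter p M₁ M₂ n lam, vertexQ p lam⁆ : Subgroup X) : Set X) :=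
    Helper1.le_normalizer_commutator _ _ _ hlamV hlamQ
  have hVQV : ⁅vertexVIter p M₁ M₂ n lam, vertexQ p lam⁆ ≤ vertexVIter p M₁ M₂ n lam :=
    Subgroup.le_normalizer_iff_commutator_le_left.mp (hQlam.trans hlamV)
  -- the subgroup U
  have hUV : (vertexZ p lam ⊔ vertexVIter p M₁ M₂ (n - 1) μ) ⊔
      ⁅vertexVIter p M₁ M₂ n lam, vertexQ p lam⁆ ≤ vertexVIter p M₁ M₂ n lam :=
    sup_le (sup_le hZlV hWV) hVQV
  have hXU : (pResidual p ↥(pElementClosure p (MulAction.stabilizer X lam))).map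
        (pElementClosure p (MulAction.stabilizer X lam)).subtype ≤
      Subgroup.normalizer (((vertexZ p lam ⊔ vertexVIter p M₁ M₂ (n - 1) μ) ⊔
      ⁅vertexVIter p M₁ M₂ n lam, vertexQ p lam⁆ : Subgroup X) : Set X) :=
    le_normalizer_of_commutator_le
      ((Subgroup.commutator_mono hUV le_rfl).trans (hcon.trans le_sup_right))
  have hlamU : MulAction.stabilizer X lam ≤
      Subgroup.normalizer (((vertexZ p lam ⊔ vertexVIter p M₁ M₂ (n - 1) μ) ⊔
      ⁅vertexVIter p M₁ M₂ n lam, vertexQ p lam⁆ : Subgroup X) : Set X) := by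
    apply le_of_pResidual_le_of_normalizer_le (MulAction.stabilizer X lam) P _ hXU
    apply le_normalizer_sup' (le_normalizer_sup' ?_ ?_) ?_
    · exact inf_le_left.trans hlamZ
    · rw [hP, hB]; exact inf_le_left.trans hμW
    · exact inf_le_left.trans hlamVQ
  have hVU : vertexVIter p M₁ M₂ n lam ≤ (vertexZ p lam ⊔ vertexVIter p M₁ M₂ (n - 1) μ) ⊔
      ⁅vertexVIter p M₁ M₂ n lam, vertexQ p lam⁆ := by
    conv_lhs => unfold vertexVIter
    apply iSup_le
    rintro ⟨ν, hν⟩
    show vertexZ p ν ≤ _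
    by_cases hνl : ν = lam
    · rw [hνl]; exact le_sup_left.trans le_sup_left
    · obtain ⟨w, hw⟩ := hconn.exists_walk_length_eq_dist lam ν
      cases w with
      | nil => exact absurd rfl hνl
      | cons hadj q =>
        rename_i μ'
        obtain ⟨g, hg, hgμ⟩ := nbr_trans M₁ M₂ lam μ μ' hμ hadj
        have hq : (cosetGraph M₁ M₂).dist μ' ν ≤ n - 1 := by
          have h1 := SimpleGraph.dist_le q
          rw [SimpleGraph.Walk.length_cons] at hw
          omega
        have hd : (cosetGraph M₁ M₂).dist μ (g⁻¹ • ν) ≤ n - 1 := by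
          have h1 := dist_smul M₁ M₂ hconn g μ (g⁻¹ • ν)
          rw [smul_inv_smul, hgμ] at h1
          rw [← h1]; exact hq
        have hZ1 : vertexZ p (g⁻¹ • ν) ≤ vertexVIter p M₁ M₂ (n - 1) μ :=
          le_iSup (fun ν : {ν : CosetVertex M₁ M₂ // (cosetGraph M₁ M₂).dist μ ν ≤ n - 1} =>
            vertexZ p (ν : CosetVertex M₁ M₂)) ⟨g⁻¹ • ν, hd⟩
        intro z hz
        have h1 : g⁻¹ * z * g⁻¹⁻¹ ∈ vertexZ p (g⁻¹ • ν) :=
          vertexZ_smul_le M₁ M₂ g⁻¹ ν ⟨z, hz, rfl⟩
        have h2 := (le_sup_right.trans le_sup_left :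
          vertexVIter p M₁ M₂ (n - 1) μ ≤ (vertexZ p lam ⊔ vertexVIter p M₁ M₂ (n - 1) μ) ⊔
          ⁅vertexVIter p M₁ M₂ n lam, vertexQ p lam⁆) (hZ1 h1)
        have h3 := (Subgroup.mem_normalizer_iff.mp (hlamU hg) _).mp h2
        have e : g * (g⁻¹ * z * g⁻¹⁻¹) * g⁻¹ = z := by group
        rwa [e] at h3
  -- Nakayama
  have hQW : vertexQ p lam ≤ Subgroup.normalizer
      ((vertexZ p lam ⊔ vertexVIter p M₁ M₂ (n - 1) μ : Subgroup X) : Set X) :=
    le_normalizer_sup' (hQlam.trans hlamZ) (hQμ.trans hμW)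
  have hVW : vertexVIter p M₁ M₂ n lam ≤ vertexZ p lam ⊔ vertexVIter p M₁ M₂ (n - 1) μ :=
    nakayama_pgroup hQp hVQ (hQlam.trans hlamV) ((sup_le hZlV hWV).trans hVQ) hQW hVU
  -- so [V, Q] ≤ W₀
  have hZQ : ⁅vertexQ p lam, vertexZ p lam⁆ ≤ vertexVIter p M₁ M₂ (n - 1) μ := by
    rw [Subgroup.commutator_comm,
      Subgroup.commutator_eq_bot_iff_le_centralizer.mpr (vertexZ_le_centralizer_vertexQ M₁ M₂ lam)]
    exact bot_le
  have hVQW : ⁅vertexVIter p M₁ M₂ n lam, vertexQ p lam⁆ ≤ vertexVIter p M₁ M₂ (n - 1) μ := by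
    refine (Subgroup.commutator_mono hVW le_rfl).trans ?_
    rw [Subgroup.commutator_comm]
    apply commutator_sup_le ((hZlV.trans hVQ).trans (hQμ.trans hμW))
      ((hWV.trans hVQ).trans (hQμ.trans hμW)) hZQ
    exact Subgroup.le_normalizer_iff_commutator_le_right.mp (hQμ.trans hμW)
  have hXW : (pResidual p ↥(pElementClosure p (MulAction.stabilizer X lam))).map
        (pElementClosure p (MulAction.stabilizer X lam)).subtype ≤
      Subgroup.normalizer (vertexVIter p M₁ M₂ (n - 1) μ : Set X) :=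
    le_normalizer_of_commutator_le
      ((Subgroup.commutator_mono hWV le_rfl).trans (hcon.trans hVQW))
  have hlamW : MulAction.stabilizer X lam ≤
      Subgroup.normalizer (vertexVIter p M₁ M₂ (n - 1) μ : Set X) :=
    le_of_pResidual_le_of_normalizer_le (MulAction.stabilizer X lam) P _ hXW
      (by rw [hP, hB]; exact inf_le_left.trans hμW)
  have hWedge : vertexVIter p M₁ M₂ (n - 1) μ ≤
      MulAction.stabilizer X lam ⊓ MulAction.stabilizer X μ :=
    hWV.trans (hVQ.trans hQedge)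
  have hWbot : vertexVIter p M₁ M₂ (n - 1) μ = ⊥ :=
    edge_normal_eq_bot M₁ M₂ hchar.1 hμ _ hWedge hlamW hμW
  have hZ : vertexZ p μ ≠ ⊥ := by
    obtain ⟨ff, hdvd⟩ := stab_finite_dvd M₁ M₂ hchar μ
    exact sylowCenterClosure_ne_bot _ hdvd
  apply hZ
  rw [eq_bot_iff, ← hWbot]
  exact vertexZ_le_vertexVIter M₁ M₂ p (n - 1) μ

end Cfsg.Agent.Helper16
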